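import Cfsg.Agent.FrameSix90.Fusion

/-!
Six frame vectors: the conjugate of a sign change with two transpositions, and the fusion statement.
-/

set_option autoImplicit false
set_option linter.unusedSectionVars false

namespace CfsgLib.FrameSix90

open Cfsg.Geo Module CfsgLib.OrthGeo CfsgLib.OrthMono17 CfsgLib.OrthMono17.Frame
open scoped Matrix MatrixGroups

variable {ι : Type} [Fintype ι] [DecidableEq ι] {F : Type*} [Field F] [Fintype F]
variable {Q : (ι → F) → F} {κ : Type} [Fintype κ] [DecidableEq κ] {𝔉 : Frame Q κ}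
variable {H : Subgroup (GL ι F)}

namespace Six

variable (h : Six 𝔉 H)
include h

/-- A three-cycle with prescribed signs of product one. -/
lemma exists_signed_cyc {a b c : κ} (hab : a ≠ b) (hbc : b ≠ c) (hac : a ≠ c) {sa sb sc : F}
    (ha : sa * sa = 1) (hb : sb * sb = 1) (hprod : sa * sb * sc = 1) : ∃ g ∈ H,
    (g : Matrix ι ι F) *ᵥ 𝔉.basis a = sa • 𝔉.basis b ∧ (g : Matrix ι ι F) *ᵥ 𝔉.basis b = sb • 𝔉.basis c ∧
    (g : Matrix ι ι F) *ᵥ 𝔉.basis c = sc • 𝔉.basis a ∧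
    ∀ k, k ≠ a → k ≠ b → k ≠ c → (g : Matrix ι ι F) *ᵥ 𝔉.basis k = 𝔉.basis k := by
  obtain ⟨P, hP, hPk⟩ := h.exists_cyc hab hbc hac
  have hPa : (P : Matrix ι ι F) *ᵥ 𝔉.basis a = 𝔉.basis b := by rw [hPk, if_pos rfl]
  have hPb : (P : Matrix ι ι F) *ᵥ 𝔉.basis b = 𝔉.basis c := by rw [hPk, if_neg hab.symm, if_pos rfl]
  have hPc : (P : Matrix ι ι F) *ᵥ 𝔉.basis c = 𝔉.basis a := by
    rw [hPk, if_neg hac.symm, if_neg hbc.symm, if_pos rfl]
  have hPo : ∀ k, k ≠ a → k ≠ b → k ≠ c → (P : Matrix ι ι F) *ᵥ 𝔉.basis k = 𝔉.basis k := fun k h1 h2 h3 => by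
    rw [hPk, if_neg h1, if_neg h2, if_neg h3]
  obtain ⟨s, hs, h1, h2, h3, h4⟩ : ∃ s ∈ H, (s : Matrix ι ι F) *ᵥ 𝔉.basis a = sa • 𝔉.basis a ∧
      (s : Matrix ι ι F) *ᵥ 𝔉.basis b = sb • 𝔉.basis b ∧ (s : Matrix ι ι F) *ᵥ 𝔉.basis c = sc • 𝔉.basis c ∧
      ∀ k, k ≠ a → k ≠ b → k ≠ c → (s : Matrix ι ι F) *ᵥ 𝔉.basis k = 𝔉.basis k := by
    rcases mul_self_eq_one_iff.1 ha with rfl | rfl <;> rcases mul_self_eq_one_iff.1 hb with rfl | rfl
    · exact ⟨1, one_mem _, by simp, by simp, by rw [show sc = 1 by linear_combination hprod]; simp, by simp⟩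
    · obtain ⟨s, hs, hsk⟩ := h.exists_sgn hbc
      exact ⟨s, hs, by simp [hsk a, hab, hac], by simp [hsk b],
        by rw [show sc = -1 by linear_combination -hprod]; simp [hsk c],
        fun k _ h2 h3 => by simp [hsk k, h2, h3]⟩
    · obtain ⟨s, hs, hsk⟩ := h.exists_sgn hac
      exact ⟨s, hs, by simp [hsk a], by simp [hsk b, hab.symm, hbc],
        by rw [show sc = -1 by linear_combination -hprod]; simp [hsk c],
        fun k h1 _ h3 => by simp [hsk k, h1, h3]⟩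
    · obtain ⟨s, hs, hsk⟩ := h.exists_sgn hab
      exact ⟨s, hs, by simp [hsk a], by simp [hsk b],
        by rw [show sc = 1 by linear_combination hprod]; simp [hsk c, hac.symm, hbc.symm],
        fun k h1 h2 _ => by simp [hsk k, h1, h2]⟩
  exact ⟨P * s, mul_mem hP hs, by rw [mul_mulVec, h1, Matrix.mulVec_smul, hPa],
    by rw [mul_mulVec, h2, Matrix.mulVec_smul, hPb], by rw [mul_mulVec, h3, Matrix.mulVec_smul, hPc],
    fun k ha' hb' hc' => by rw [mul_mulVec, h4 k ha' hb' hc', hPo k ha' hb' hc']⟩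

/-- An image which is a difference of two frame vectors, perpendicular to another such image. -/
lemma false_of_two_two {g : GL ι F} {i j a b p q : κ} (hg : g ∈ H) (hab : a ≠ b) (hpq : p ≠ q) (hap : a ≠ p)
    (haq : a ≠ q) (hbp : b ≠ p) (hbq : b ≠ q) {α β s s' : F}
    (hv : (g : Matrix ι ι F) *ᵥ 𝔉.basis i = α • (𝔉.basis a - s • 𝔉.basis b))
    (hw : (g : Matrix ι ι F) *ᵥ 𝔉.basis j = β • (𝔉.basis p - s' • 𝔉.basis q)) (hs' : s' * s' = 1)
    (hβ : 2 * β * β = 1) : False := by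
  classical
  obtain ⟨x, hx⟩ := h.exists_ne {a, b, p, q} ((Finset.card_le_four).trans (by norm_num))
  simp only [Finset.mem_insert, Finset.mem_singleton, not_or] at hx
  obtain ⟨y, hy⟩ := h.exists_ne {a, b, p, q, x} Finset.card_le_five
  simp only [Finset.mem_insert, Finset.mem_singleton, not_or] at hy
  obtain ⟨π, hπ, hπk⟩ := h.exists_cyc (a := p) (b := x) (c := y) (Ne.symm hx.2.2.1) (Ne.symm hy.2.2.2.2) (Ne.symm hy.2.2.1)
  have hπfix : ∀ k, k ≠ p → k ≠ x → k ≠ y → (π : Matrix ι ι F) *ᵥ 𝔉.basis k = 𝔉.basis k := fun k h1 h2 h3 => by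
    rw [hπk, if_neg h1, if_neg h2, if_neg h3]
  have hπp : (π : Matrix ι ι F) *ᵥ 𝔉.basis p = 𝔉.basis x := by rw [hπk, if_pos rfl]
  have hfix : (π : Matrix ι ι F) *ᵥ ((g : Matrix ι ι F) *ᵥ 𝔉.basis i) = (g : Matrix ι ι F) *ᵥ 𝔉.basis i := by
    rw [hv, Matrix.mulVec_smul, Matrix.mulVec_sub, Matrix.mulVec_smul, hπfix a hap (Ne.symm hx.1) (Ne.symm hy.1),
      hπfix b hbp (Ne.symm hx.2.1) (Ne.symm hy.2.1)]
  have hfin := h.image_dot hg hπ hfix j
  have e2 : 𝔉.dot ((g : Matrix ι ι F) *ᵥ 𝔉.basis j) ((π : Matrix ι ι F) *ᵥ ((g : Matrix ι ι F) *ᵥ 𝔉.basis j)) =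
      β * β := by
    rw [hw, Matrix.mulVec_smul, Matrix.mulVec_sub, Matrix.mulVec_smul, hπp,
      hπfix q hpq.symm (Ne.symm hx.2.2.2) (Ne.symm hy.2.2.2.1)]
    simp [co_basis_ne (h := hpq), co_basis_ne (h := hpq.symm), co_basis_ne (h := hx.2.2.1),
      co_basis_ne (h := Ne.symm hx.2.2.1), co_basis_ne (h := hx.2.2.2), co_basis_ne (h := Ne.symm hx.2.2.2)]
    left
    linear_combination β * hs'
  rw [e2] at hfin
  rcases hfin with h' | h' | h'
  · exact one_ne_zero (α := F) (by linear_combination 2 * h' - hβ)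
  · exact one_ne_zero (α := F) (by linear_combination hβ - 2 * h')
  · exact h.three_ne β hβ (by linear_combination 2 * h' - hβ)

/-- Two transpositions. -/
lemma false_of_double {t g : GL ι F} {e f a b p q : κ} {σ : Equiv.Perm κ} {c : κ → F}
    (ht : IsSgn 𝔉 t e f) (hef : e ≠ f) (hg : g ∈ H) (hc2 : ∀ k, c k * c k = 1)
    (hz : ∀ k, ((g * t * g⁻¹ : GL ι F) : Matrix ι ι F) *ᵥ 𝔉.basis k = c k • 𝔉.basis (σ k))
    (hab : a ≠ b) (hσa : σ a = b) (hσb : σ b = a) (hcc : c a * c b = 1)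
    (hpq : p ≠ q) (hσp : σ p = q) (hσq : σ q = p) (hcc' : c p * c q = 1) (hap : a ≠ p) (haq : a ≠ q) :
    𝔉.Mono Finset.univ g := by
  classical
  by_contra hnm
  have h2 := 𝔉.two_ne
  have hgI := h.mem_iso hg
  have hbp : b ≠ p := fun h' => haq (σ.injective (by rw [hσa, h', hσq]))
  have hbq : b ≠ q := fun h' => hap (σ.injective (by rw [hσa, h', hσp]))
  set u₁ := 𝔉.basis a - c a • 𝔉.basis b with hu₁
  set u₂ := 𝔉.basis p - c p • 𝔉.basis q with hu₂
  have hzu₁ : ((g * t * g⁻¹ : GL ι F) : Matrix ι ι F) *ᵥ u₁ = -u₁ := by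
    rw [hu₁, Matrix.mulVec_sub, Matrix.mulVec_smul, hz, hz, hσa, hσb, smul_smul, hcc, one_smul]
    module
  have hzu₂ : ((g * t * g⁻¹ : GL ι F) : Matrix ι ι F) *ᵥ u₂ = -u₂ := by
    rw [hu₂, Matrix.mulVec_sub, Matrix.mulVec_smul, hz, hz, hσp, hσq, smul_smul, hcc', one_smul]
    module
  have hne₁ : ∀ k, k ≠ a → k ≠ b → 𝔉.co u₁ k = 0 := fun k h1 h2 => by
    simp [hu₁, co_basis_ne (h := Ne.symm h1), co_basis_ne (h := Ne.symm h2)]
  have hu₁S : 𝔉.InS {a, b} u₁ := (𝔉.inS_basis (by simp)).sub ((𝔉.inS_basis (by simp)).smul _)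
  have h12 : 𝔉.dot u₁ u₂ = 0 := by
    simp [hu₁, hu₂, co_basis_ne (h := hap), co_basis_ne (h := haq), co_basis_ne (h := hbp), co_basis_ne (h := hbq),
      co_basis_ne (h := hap.symm), co_basis_ne (h := haq.symm), co_basis_ne (h := hbp.symm), co_basis_ne (h := hbq.symm)]
  have h11 : 𝔉.dot u₁ u₁ = 2 := by
    simp [hu₁, co_basis_ne (h := hab), co_basis_ne (h := hab.symm)]
    linear_combination hc2 a
  have h22 : 𝔉.dot u₂ u₂ = 2 := by
    simp [hu₂, co_basis_ne (h := hpq), co_basis_ne (h := hpq.symm)]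
    linear_combination hc2 p
  have hspan : ∀ i, i = e ∨ i = f → ∃ α β : F, (g : Matrix ι ι F) *ᵥ 𝔉.basis i = α • u₁ + β • u₂ := fun i hi =>
    ⟨_, _, neg_space 𝔉 ht hef hgI hzu₁ hzu₂ h12 (by rw [h11]; exact h2) (by rw [h22]; exact h2) (by
      rw [mul_mulVec, mul_mulVec, inv_mulVec_cancel, ht i, if_pos hi, neg_one_smul, Matrix.mulVec_neg])⟩
  obtain ⟨α, β, hv⟩ := hspan e (Or.inl rfl)
  obtain ⟨α', β', hw⟩ := hspan f (Or.inr rfl)
  have hdot : ∀ α β γ δ : F, 𝔉.dot (α • u₁ + β • u₂) (γ • u₁ + δ • u₂) = 2 * α * γ + 2 * β * δ := by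
    intro α β γ δ
    rw [dot_add_left, dot_add_right, dot_add_right, dot_smul_left, dot_smul_left, dot_smul_left, dot_smul_left,
      dot_smul_right, dot_smul_right, dot_smul_right, dot_smul_right, h11, h22, h12, dot_comm 𝔉 u₂ u₁, h12]
    ring
  have hvv : 2 * α * α + 2 * β * β = 1 := by rw [← hdot, ← hv, 𝔉.dot_isometry hgI]; simp
  have hww : 2 * α' * α' + 2 * β' * β' = 1 := by rw [← hdot, ← hw, 𝔉.dot_isometry hgI]; simp
  have hvw : 2 * α * α' + 2 * β * β' = 0 := by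
    rw [← hdot, ← hv, ← hw, 𝔉.dot_isometry hgI]; simp [co_basis_ne (h := hef), co_basis_ne (h := hef.symm)]
  have hβ : β ≠ 0 := by
    intro h0
    rw [h0] at hvv hvw hv
    have hα : α ≠ 0 := fun h' => by rw [h'] at hvv; simp at hvv
    have hα' : α' = 0 := (mul_eq_zero.1 (show (2 * α) * α' = 0 by linear_combination hvw)).resolve_left (mul_ne_zero h2 hα)
    rw [hα'] at hww hw
    exact h.false_of_two_two hg hab hpq hap haq hbp hbq (by rw [hv, zero_smul, add_zero, hu₁])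
      (by rw [hw, zero_smul, zero_add, hu₂]) (hc2 p) (by linear_combination hww)
  have hα : α ≠ 0 := by
    intro h0
    rw [h0] at hvv hvw hv
    have hβ' : β' = 0 := (mul_eq_zero.1 (show (2 * β) * β' = 0 by linear_combination hvw)).resolve_left (mul_ne_zero h2 hβ)
    rw [hβ'] at hww hw
    exact h.false_of_two_two hg hpq hab hap.symm hbp.symm haq.symm hbq.symm (by rw [hv, zero_smul, zero_add, hu₂])
      (by rw [hw, zero_smul, add_zero, hu₁]) (hc2 a) (by linear_combination hww)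
  -- the sign change on the first pair
  obtain ⟨u, huH, hu⟩ := h.exists_sgn hab
  have huz : (g * t * g⁻¹) * u = u * (g * t * g⁻¹) := commute_sgn_of_perm hu σ c hz fun k => by
    refine ⟨?_, ?_⟩
    · rintro (hk | hk)
      exacts [Or.inr (σ.injective (hk.trans hσb.symm)), Or.inl (σ.injective (hk.trans hσa.symm))]
    · rintro (rfl | rfl)
      exacts [Or.inr hσa, Or.inl hσb]
  have hm₀H : g⁻¹ * u * g ∈ H := mul_mem (mul_mem (inv_mem hg) huH) hg
  have hm₀t : (g⁻¹ * u * g) * t = t * (g⁻¹ * u * g) := by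
    calc (g⁻¹ * u * g) * t = g⁻¹ * (u * (g * t * g⁻¹)) * g := by group
      _ = g⁻¹ * ((g * t * g⁻¹) * u) * g := by rw [huz]
      _ = t * (g⁻¹ * u * g) := by group
  obtain ⟨τ, d, hd2, hd⟩ := mono_signed (h.mem_iso hm₀H) (h.mono_of_commute_sgn ht hef hm₀H hm₀t)
  have hD : α * α = β * β := by
    have hue := congrArg (fun v => (g : Matrix ι ι F) *ᵥ v) (hd e)
    simp only [mul_mulVec, mulVec_inv_cancel, Matrix.mulVec_smul] at hue
    have huu₂ : (u : Matrix ι ι F) *ᵥ u₂ = u₂ := by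
      rw [hu₂, Matrix.mulVec_sub, Matrix.mulVec_smul, hu p, hu q, if_neg (not_or.2 ⟨hap.symm, hbp.symm⟩),
        if_neg (not_or.2 ⟨haq.symm, hbq.symm⟩), one_smul, one_smul]
    have e1 : 𝔉.dot ((g : Matrix ι ι F) *ᵥ 𝔉.basis e) ((u : Matrix ι ι F) *ᵥ ((g : Matrix ι ι F) *ᵥ 𝔉.basis e)) =
        2 * α * (-α) + 2 * β * β := by
      rw [hv, Matrix.mulVec_add, Matrix.mulVec_smul, Matrix.mulVec_smul, hu.mulVec_inS hu₁S, huu₂, smul_neg,
        ← neg_smul, hdot]
    rw [hue, dot_smul_right, 𝔉.dot_isometry hgI, dot_basis_left] at e1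
    by_cases hτ : τ e = e
    · rw [hτ, co_basis_self, mul_one] at e1
      exfalso
      rcases mul_self_eq_one_iff.1 (hd2 e) with h' | h'
      · exact mul_ne_zero (mul_ne_zero h2 hα) (mul_ne_zero h2 hα) (by linear_combination hvv + (h'.symm.trans e1))
      · exact mul_ne_zero (mul_ne_zero h2 hβ) (mul_ne_zero h2 hβ) (by linear_combination hvv - (h'.symm.trans e1))
    · rw [co_basis_ne (h := hτ), mul_zero] at e1
      exact mul_left_cancel₀ h2 (by linear_combination e1)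
  have hD' : α' * α' = β' * β' := by
    have h1 : β * β' = -(α * α') := mul_left_cancel₀ h2 (by linear_combination hvw)
    refine mul_left_cancel₀ (mul_ne_zero hβ hβ) ?_
    linear_combination (-(β * β' - α * α')) * h1 - (α' * α') * hD
  have h4α : 4 * α * α = 1 := by linear_combination hvv + 2 * hD
  have h4β : 4 * β * β = 1 := by linear_combination hvv - 2 * hD
  have hαβ' : α' * β = β' * α ∨ α' * β = -(β' * α) := sq_eq_sq_iff_eq_or_eq_neg.1
    (by linear_combination (β * β) * hD' - (β' * β') * hD)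
  have hw' : ∃ ε : F, ε * ε = 1 ∧ α' = ε * α ∧ β' = -(ε * β) := by
    have hα'0 : α' ≠ 0 := fun h0 => by
      have hb0 : β' = 0 := mul_self_eq_zero.1 (by linear_combination -hD' + α' * h0)
      rw [h0, hb0] at hww; simp at hww
    have h4 : 4 * α' * α' = 1 := by linear_combination hww + 2 * hD'
    refine ⟨α' / α, ?_, (div_mul_cancel₀ _ hα).symm, ?_⟩
    · field_simp
      exact mul_left_cancel₀ (show (4 : F) ≠ 0 by
        rw [show (4 : F) = 2 * 2 by norm_num]; exact mul_ne_zero h2 h2) (by linear_combination h4 - h4α)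
    · have hb : β' * α = -(α' * β) :=
        mul_left_cancel₀ (mul_ne_zero h2 hα) (by linear_combination β * hvw + 2 * β' * hD)
      rw [div_mul_eq_mul_div, ← neg_div, eq_div_iff hα]
      exact hb
  obtain ⟨ε, hε, hα', hβ'⟩ := hw'
  set v := (g : Matrix ι ι F) *ᵥ 𝔉.basis e with hvdef
  set w := α • u₁ - β • u₂ with hwdef
  have hwf : (g : Matrix ι ι F) *ᵥ 𝔉.basis f = ε • w := by
    rw [hw, hα', hβ', hwdef]; module
  -- the coordinates
  have hca := hc2 a
  have hcp := hc2 p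
  have hv' : v = α • 𝔉.basis a + (-(α * c a)) • 𝔉.basis b + β • 𝔉.basis p + (-(β * c p)) • 𝔉.basis q := by
    rw [hv, hu₁, hu₂]; module
  have hwab : w = α • 𝔉.basis a + (-(α * c a)) • 𝔉.basis b + (-β) • 𝔉.basis p + (β * c p) • 𝔉.basis q := by
    rw [hwdef, hu₁, hu₂]; module
  obtain ⟨π, hπ, hπa, hπb, hπp, hπo⟩ := h.exists_signed_cyc hab hbp hap (sa := -(c a))
    (sb := -(4 * α * β * c a)) (sc := 4 * α * β) (by linear_combination hca)
    (by linear_combination 16 * α * α * β * β * hca + 4 * β * β * h4α + h4β)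
    (by linear_combination 16 * α * α * β * β * hca + 4 * β * β * h4α + h4β)
  have hπq := hπo q haq.symm hbq.symm hpq.symm
  have hπact : ∀ A B C D : F, (π : Matrix ι ι F) *ᵥ
      (A • 𝔉.basis a + B • 𝔉.basis b + C • 𝔉.basis p + D • 𝔉.basis q) =
      (C * (4 * α * β)) • 𝔉.basis a + (A * -(c a)) • 𝔉.basis b + (B * -(4 * α * β * c a)) • 𝔉.basis p +
        D • 𝔉.basis q := by
    intro A B C D
    rw [Matrix.mulVec_add, Matrix.mulVec_add, Matrix.mulVec_add, Matrix.mulVec_smul, Matrix.mulVec_smul,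
      Matrix.mulVec_smul, Matrix.mulVec_smul, hπa, hπb, hπp, hπq]
    module
  have hdot4 : ∀ A B C D A' B' C' D' : F,
      𝔉.dot (A • 𝔉.basis a + B • 𝔉.basis b + C • 𝔉.basis p + D • 𝔉.basis q)
        (A' • 𝔉.basis a + B' • 𝔉.basis b + C' • 𝔉.basis p + D' • 𝔉.basis q) = A * A' + B * B' + C * C' + D * D' := by
    intro A B C D A' B' C' D'
    simp [co_basis_ne (h := hab), co_basis_ne (h := hab.symm), co_basis_ne (h := hpq), co_basis_ne (h := hpq.symm),
      co_basis_ne (h := hap), co_basis_ne (h := hap.symm), co_basis_ne (h := haq), co_basis_ne (h := haq.symm),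
      co_basis_ne (h := hbp), co_basis_ne (h := hbp.symm), co_basis_ne (h := hbq), co_basis_ne (h := hbq.symm)]
    ring
  have hfix : (π : Matrix ι ι F) *ᵥ v = v := by
    rw [hv', hπact]
    have k1 : β * (4 * α * β) = α := by linear_combination α * h4β
    have k2 : -(α * c a) * -(4 * α * β * c a) = β := by linear_combination 4 * α * α * β * hca + β * h4α
    rw [k1, k2, mul_neg]
  obtain ⟨x₁, hx₁⟩ : ∃ x₁, x₁ = (π : Matrix ι ι F) *ᵥ w := ⟨_, rfl⟩
  have hx₁' : x₁ = (-α) • 𝔉.basis a + (-(α * c a)) • 𝔉.basis b + β • 𝔉.basis p + (β * c p) • 𝔉.basis q := by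
    rw [hx₁, hwab, hπact]
    have k1 : -β * (4 * α * β) = -α := by linear_combination -(α * h4β)
    have k2 : -(α * c a) * -(4 * α * β * c a) = β := by linear_combination 4 * α * α * β * hca + β * h4α
    rw [k1, k2, mul_neg]
  obtain ⟨x₂, hx₂⟩ : ∃ x₂, x₂ = (π : Matrix ι ι F) *ᵥ x₁ := ⟨_, rfl⟩
  have hx₂' : x₂ = α • 𝔉.basis a + (α * c a) • 𝔉.basis b + β • 𝔉.basis p + (β * c p) • 𝔉.basis q := by
    rw [hx₂, hx₁', hπact]
    have k1 : β * (4 * α * β) = α := by linear_combination α * h4β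
    have k2 : -(α * c a) * -(4 * α * β * c a) = β := by linear_combination 4 * α * α * β * hca + β * h4α
    rw [k1, k2, neg_mul_neg]
  -- the images of two further frame vectors
  obtain ⟨l₁, s₁, hs₁, hl₁⟩ := h.image_perm hg hπ (i := e) hfix f
  rw [hwf, Matrix.mulVec_smul, ← hx₁] at hl₁
  have hx₁g : x₁ = (ε * s₁) • (g : Matrix ι ι F) *ᵥ 𝔉.basis l₁ := by
    rw [mul_smul, ← hl₁, smul_smul, hε, one_smul]
  obtain ⟨l₂, s₂, hs₂, hl₂⟩ := h.image_perm hg hπ (i := e) hfix l₁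
  have hx₂g : x₂ = (ε * s₁ * s₂) • (g : Matrix ι ι F) *ᵥ 𝔉.basis l₂ := by
    rw [hx₂, hx₁g, Matrix.mulVec_smul, hl₂, smul_smul]
  -- every other image avoids the four coordinates
  have hrest : ∀ i, i ≠ e → i ≠ f → i ≠ l₁ → i ≠ l₂ → ∀ k, k = a ∨ k = b ∨ k = p ∨ k = q →
      𝔉.co ((g : Matrix ι ι F) *ᵥ 𝔉.basis i) k = 0 := by
    intro i hie hif hi1 hi2
    set y := (g : Matrix ι ι F) *ᵥ 𝔉.basis i with hy
    have hperp : ∀ l, i ≠ l → 𝔉.dot y ((g : Matrix ι ι F) *ᵥ 𝔉.basis l) = 0 := fun l hl => by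
      rw [hy, 𝔉.dot_isometry hgI, dot_basis_left, co_basis_ne (h := hl.symm)]
    have hd : ∀ A B C D : F, 𝔉.dot y (A • 𝔉.basis a + B • 𝔉.basis b + C • 𝔉.basis p + D • 𝔉.basis q) =
        A * 𝔉.co y a + B * 𝔉.co y b + C * 𝔉.co y p + D * 𝔉.co y q := fun A B C D => by simp
    have p1 : 𝔉.dot y v = 0 := hperp e hie
    have p2 : 𝔉.dot y w = 0 := by
      have := hperp f hif
      rw [hwf, dot_smul_right] at this
      exact (mul_eq_zero.1 this).resolve_left fun h0 => by simpa [h0] using hε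
    have p3 : 𝔉.dot y x₁ = 0 := by rw [hx₁g, dot_smul_right, hperp l₁ hi1, mul_zero]
    have p4 : 𝔉.dot y x₂ = 0 := by rw [hx₂g, dot_smul_right, hperp l₂ hi2, mul_zero]
    rw [hv', hd] at p1
    rw [hwab, hd] at p2
    rw [hx₁', hd] at p3
    rw [hx₂', hd] at p4
    have h4 : (2 : F) * 2 ≠ 0 := mul_ne_zero h2 h2
    have hca0 : c a ≠ 0 := fun h0 => by simpa [h0] using hca
    have hcp0 : c p ≠ 0 := fun h0 => by simpa [h0] using hcp
    rintro k (rfl | rfl | rfl | rfl)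
    · exact (mul_eq_zero.1 (show (2 * 2 * α) * 𝔉.co y k = 0 by linear_combination p1 + p2 - p3 + p4)).resolve_left
        (mul_ne_zero h4 hα)
    · exact (mul_eq_zero.1 (show (2 * 2 * α * c a) * 𝔉.co y k = 0 by linear_combination -p1 - p2 - p3 + p4)).resolve_left
        (mul_ne_zero (mul_ne_zero h4 hα) hca0)
    · exact (mul_eq_zero.1 (show (2 * 2 * β) * 𝔉.co y k = 0 by linear_combination p1 - p2 + p3 + p4)).resolve_left
        (mul_ne_zero h4 hβ)
    · exact (mul_eq_zero.1 (show (2 * 2 * β * c p) * 𝔉.co y k = 0 by linear_combination -p1 + p2 + p3 + p4)).resolve_left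
        (mul_ne_zero (mul_ne_zero h4 hβ) hcp0)
  -- so a sign change is conjugate to the sign change on the two outside vectors
  obtain ⟨e₀, he₀⟩ := h.exists_ne {a, b, p, q} ((Finset.card_le_four).trans (by norm_num))
  simp only [Finset.mem_insert, Finset.mem_singleton, not_or] at he₀
  obtain ⟨f₀, hf₀⟩ := h.exists_ne {a, b, p, q, e₀} Finset.card_le_five
  simp only [Finset.mem_insert, Finset.mem_singleton, not_or] at hf₀
  obtain ⟨z', hz'H, hz'⟩ := h.exists_sgn (Ne.symm hf₀.2.2.2.2)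
  have hcov : ∀ k, k = a ∨ k = b ∨ k = p ∨ k = q ∨ k = e₀ ∨ k = f₀ := by
    intro k
    by_contra hk
    push Not at hk
    have : ({k, a, b, p, q, e₀, f₀} : Finset κ).card = 7 := by
      rw [Finset.card_insert_of_notMem (by simp [hk]),
        Finset.card_insert_of_notMem (by simp [hab, hap, haq, Ne.symm he₀.1, Ne.symm hf₀.1]),
        Finset.card_insert_of_notMem (by simp [hbp, hbq, Ne.symm he₀.2.1, Ne.symm hf₀.2.1]),
        Finset.card_insert_of_notMem (by simp [hpq, Ne.symm he₀.2.2.1, Ne.symm hf₀.2.2.1]),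
        Finset.card_insert_of_notMem (by simp [Ne.symm he₀.2.2.2, Ne.symm hf₀.2.2.2.1]),
        Finset.card_pair (Ne.symm hf₀.2.2.2.2)]
    have hle := Finset.card_le_univ ({k, a, b, p, q, e₀, f₀} : Finset κ)
    rw [this, h.card_six] at hle
    omega
  have hdiag : ∀ i, ∃ s : F, s * s = 1 ∧
      ((g⁻¹ * z' * g : GL ι F) : Matrix ι ι F) *ᵥ 𝔉.basis i = s • 𝔉.basis i := by
    intro i
    rw [mul_mulVec, mul_mulVec]
    set y := (g : Matrix ι ι F) *ᵥ 𝔉.basis i with hy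
    have hfixz : ∀ x, 𝔉.InS {a, b, p, q} x → (z' : Matrix ι ι F) *ᵥ x = x := fun x hx =>
      (hx.mulVec_congr (B := 1) fun l hl => by
        simp only [Finset.mem_insert, Finset.mem_singleton] at hl
        rw [hz' l, if_neg, one_smul, Matrix.one_mulVec]
        rcases hl with rfl | rfl | rfl | rfl
        exacts [not_or.2 ⟨Ne.symm he₀.1, Ne.symm hf₀.1⟩, not_or.2 ⟨Ne.symm he₀.2.1, Ne.symm hf₀.2.1⟩,
          not_or.2 ⟨Ne.symm he₀.2.2.1, Ne.symm hf₀.2.2.1⟩, not_or.2 ⟨Ne.symm he₀.2.2.2, Ne.symm hf₀.2.2.2.1⟩]).trans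
        (Matrix.one_mulVec _)
    have hfour : ∀ A B C D : F,
        𝔉.InS {a, b, p, q} (A • 𝔉.basis a + B • 𝔉.basis b + C • 𝔉.basis p + D • 𝔉.basis q) := fun A B C D =>
      ((((𝔉.inS_basis (by simp)).smul _).add ((𝔉.inS_basis (by simp)).smul _)).add
        ((𝔉.inS_basis (by simp)).smul _)).add ((𝔉.inS_basis (by simp)).smul _)
    have hS4 : i = e ∨ i = f ∨ i = l₁ ∨ i = l₂ → 𝔉.InS {a, b, p, q} y := by
      have hεs : ε * s₁ ≠ 0 := fun h0 => by
        rcases mul_eq_zero.1 h0 with h0 | h0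
        · simpa [h0] using hε
        · simpa [h0] using hs₁
      rintro (rfl | rfl | rfl | rfl)
      · rw [hy, ← hvdef, hv']; exact hfour _ _ _ _
      · rw [hy, hwf, hwab]; exact (hfour _ _ _ _).smul _
      · have : y = (ε * s₁)⁻¹ • x₁ := by rw [hx₁g, smul_smul, inv_mul_cancel₀ hεs, one_smul]
        rw [this, hx₁']; exact (hfour _ _ _ _).smul _
      · have hεs2 : ε * s₁ * s₂ ≠ 0 := mul_ne_zero hεs fun h0 => by simpa [h0] using hs₂
        have : y = (ε * s₁ * s₂)⁻¹ • x₂ := by rw [hx₂g, smul_smul, inv_mul_cancel₀ hεs2, one_smul]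
        rw [this, hx₂']; exact (hfour _ _ _ _).smul _
    by_cases hi : i = e ∨ i = f ∨ i = l₁ ∨ i = l₂
    · exact ⟨1, one_mul 1, by rw [hfixz y (hS4 hi), hy, inv_mulVec_cancel, one_smul]⟩
    · push Not at hi
      have hyS : 𝔉.InS {e₀, f₀} y := fun k hk => by
        simp only [Finset.mem_insert, Finset.mem_singleton, not_or] at hk
        refine hrest i hi.1 hi.2.1 hi.2.2.1 hi.2.2.2 k ?_
        rcases hcov k with h' | h' | h' | h' | h' | h'
        exacts [Or.inl h', Or.inr (Or.inl h'), Or.inr (Or.inr (Or.inl h')), Or.inr (Or.inr (Or.inr h')),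
          absurd h' hk.1, absurd h' hk.2]
      exact ⟨-1, by ring, by rw [hz'.mulVec_inS hyS, Matrix.mulVec_neg, hy, inv_mulVec_cancel, neg_one_smul]⟩
  choose s hs2 hs using hdiag
  have := h.mono_of_conj_diag (g := g⁻¹) hz' (Ne.symm hf₀.2.2.2.2) (inv_mem hg) hs2 (by rw [inv_inv]; exact hs)
  exact hnm (inv_inv g ▸ this.inv)

/-- A monomial conjugate of a sign change comes from a monomial member. -/
theorem mono_of_conj_mono {t g : GL ι F} {e f : κ} (ht : IsSgn 𝔉 t e f) (hef : e ≠ f) (htH : t ∈ H) (hg : g ∈ H)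
    (hM : 𝔉.Mono Finset.univ (g * t * g⁻¹)) : 𝔉.Mono Finset.univ g := by
  classical
  obtain ⟨σ, c, hc2, hz⟩ := mono_signed (h.mem_iso (mul_mem (mul_mem hg htH) (inv_mem hg))) hM
  have hzz : (g * t * g⁻¹) * (g * t * g⁻¹) = 1 := by
    calc (g * t * g⁻¹) * (g * t * g⁻¹) = g * (t * t) * g⁻¹ := by group
      _ = 1 := by rw [ht.mul_self, mul_one, mul_inv_cancel]
  have hinv : ∀ k, σ (σ k) = k ∧ c k * c (σ k) = 1 := by
    intro k
    have h1 := congrArg (fun x : GL ι F => (x : Matrix ι ι F) *ᵥ 𝔉.basis k) hzz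
    simp only [mul_mulVec, hz, Matrix.mulVec_smul, smul_smul, Units.val_one, Matrix.one_mulVec] at h1
    have hσ : σ (σ k) = k := by
      by_contra hn
      have := congrArg (fun v => 𝔉.co v k) h1
      simp [co_basis_ne (h := hn)] at this
    refine ⟨hσ, ?_⟩
    rw [hσ] at h1
    have := congrArg (fun v => 𝔉.co v k) h1
    simpa using this
  by_cases hσ1 : ∀ k, σ k = k
  · exact h.mono_of_conj_diag ht hef hg hc2 fun k => by rw [hz k, hσ1 k]
  push Not at hσ1
  obtain ⟨a, ha⟩ := hσ1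
  by_cases hk : ∃ k₀, σ k₀ = k₀ ∧ c k₀ = -1
  · obtain ⟨k₀, hk₀, hck₀⟩ := hk
    exact h.false_of_single ht hef hg hc2 hz (Ne.symm ha) rfl (hinv a).1 (hinv a).2 hk₀ hck₀
  by_cases hp : ∃ p, σ p ≠ p ∧ p ≠ a ∧ p ≠ σ a
  · obtain ⟨p, hp, hpa, hpb⟩ := hp
    exact h.false_of_double ht hef hg hc2 hz (Ne.symm ha) rfl (hinv a).1 (hinv a).2 (Ne.symm hp) rfl (hinv p).1
      (hinv p).2 (Ne.symm hpa) fun h' => hpb (by rw [h', (hinv p).1])
  push Not at hk hp
  -- the minus space of the conjugate would be a line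
  exfalso
  have hline : ∀ i, i = e ∨ i = f → ∃ s : F, (g : Matrix ι ι F) *ᵥ 𝔉.basis i =
      s • (𝔉.basis a - c a • 𝔉.basis (σ a)) := by
    intro i hi
    set x := (g : Matrix ι ι F) *ᵥ 𝔉.basis i with hx
    have hxn : ((g * t * g⁻¹ : GL ι F) : Matrix ι ι F) *ᵥ x = -x := by
      rw [mul_mulVec, mul_mulVec, hx, inv_mulVec_cancel, ht i, if_pos hi, neg_one_smul, Matrix.mulVec_neg]
    have hco : ∀ k, c k * 𝔉.co x k = -𝔉.co x (σ k) := fun k => by
      have h3 := co_mulVec_mono (𝔉.inS_univ x) (σ := σ) (fun l _ => hz l) σ.injective.injOn (Finset.mem_univ k)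
      rw [hxn, co_neg] at h3
      exact h3.symm
    refine ⟨𝔉.co x a, 𝔉.ext_co fun k => ?_⟩
    by_cases hka : k = a
    · subst hka
      simp [co_basis_ne (h := ha)]
    by_cases hkb : k = σ a
    · subst hkb
      have := hco a
      simp [co_basis_ne (h := Ne.symm ha)]
      linear_combination this
    · have hσk : σ k = k := by
        by_contra hn
        exact hkb (hp k hn hka)
      have := hco k
      rw [hσk] at this
      have hck : c k = 1 := (mul_self_eq_one_iff.1 (hc2 k)).resolve_right (hk k hσk)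
      rw [hck, one_mul] at this
      have h0 : (2 : F) * 𝔉.co x k = 0 := by linear_combination this
      simp [co_basis_ne (h := Ne.symm hka), co_basis_ne (h := Ne.symm hkb),
        (mul_eq_zero.1 h0).resolve_left 𝔉.two_ne]
  obtain ⟨s, hs⟩ := hline e (Or.inl rfl)
  obtain ⟨s', hs'⟩ := hline f (Or.inr rfl)
  have hgI := h.mem_iso hg
  have h0 := 𝔉.dot_isometry hgI (𝔉.basis e) (𝔉.basis f)
  have h1 := 𝔉.dot_isometry hgI (𝔉.basis e) (𝔉.basis e)
  have h1' := 𝔉.dot_isometry hgI (𝔉.basis f) (𝔉.basis f)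
  rw [hs, hs'] at h0
  rw [hs] at h1
  rw [hs'] at h1'
  set U := 𝔉.basis a - c a • 𝔉.basis (σ a)
  rw [dot_smul_left, dot_smul_right, dot_basis_left, co_basis_self] at h1 h1'
  rw [dot_smul_left, dot_smul_right, dot_basis_left, co_basis_ne (h := hef.symm)] at h0
  exact zero_ne_one (α := F) (by linear_combination -(s * (s' * 𝔉.dot U U)) * h0 + (s * (s * 𝔉.dot U U)) * h1' + h1)

end Six

end CfsgLib.FrameSix90
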