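import Cfsg.Agent.FrameSix90.Point
import Cfsg.Agent.SpC6Four90.FiveThree

/-!
Six frame vectors over three elements: a non-monomial member fixing the line of a frame vector gives
everything.
-/

set_option autoImplicit false
set_option linter.unusedSectionVars false

namespace CfsgLib.FrameSix90

open Cfsg.Geo Module CfsgLib.OrthGeo CfsgLib.OrthMono17 CfsgLib.OrthMono17.Frame
open scoped Matrix MatrixGroups

variable {ι : Type} [Fintype ι] [DecidableEq ι] {F : Type*} [Field F] [Fintype F]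
variable {Q : (ι → F) → F} {κ : Type} [Fintype κ] [DecidableEq κ] {𝔉 : Frame Q κ}
variable {H : Subgroup (GL ι F)}

/-- Root elements avoiding one frame vector, for one frame vector, give them for every one. -/
theorem avoid_all (hκ : Fintype.card κ = 6) (hD : 𝔉.Data H Finset.univ) {k : κ}
    (hk : ∀ z w, 𝔉.co z k = 0 → 𝔉.co w k = 0 → 𝔉.dot z z = 0 → 𝔉.dot z w = 0 → 𝔉.dot w w = 1 → EIn Q H z w)
    (f : κ) : ∀ z w, 𝔉.co z f = 0 → 𝔉.co w f = 0 → 𝔉.dot z z = 0 → 𝔉.dot z w = 0 → 𝔉.dot w w = 1 →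
      EIn Q H z w := by
  classical
  by_cases hfk : f = k
  · subst hfk; exact hk
  intro z w hz hw hzz hzw hww
  obtain ⟨l, hl⟩ := Finset.exists_mem_notMem_of_card_lt_card (s := ({f, k} : Finset κ)) (t := Finset.univ)
    (by rw [Finset.card_univ, hκ]; exact (Finset.card_le_two).trans_lt (by norm_num))
  simp only [Finset.mem_univ, Finset.mem_insert, Finset.mem_singleton, not_or, true_and] at hl
  obtain ⟨g, hg, hgk⟩ := hD.cyc f (Finset.mem_univ _) k (Finset.mem_univ _) l (Finset.mem_univ _) hfk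
    (Ne.symm hl.2) (Ne.symm hl.1)
  set σ : κ → κ := fun i => if i = f then k else if i = k then l else if i = l then f else i with hσ
  have hσi : Function.Injective σ := by
    intro x y hxy
    simp only [hσ] at hxy
    grind
  have hco : ∀ x, 𝔉.co ((g : Matrix ι ι F) *ᵥ x) k = 𝔉.co x f := fun x => by
    have e := co_mulVec_mono (𝔉.inS_univ x) (σ := σ) (c := fun _ => 1)
      (fun i hi => by rw [one_smul]; exact hgk i hi) hσi.injOn (Finset.mem_univ f)
    rw [one_mul, show σ f = k from if_pos rfl] at e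
    exact e
  have hgI := hD.iso hg
  have h1 := hk ((g : Matrix ι ι F) *ᵥ z) ((g : Matrix ι ι F) *ᵥ w) (by rw [hco, hz]) (by rw [hco, hw])
    (by rw [𝔉.dot_isometry hgI, hzz]) (by rw [𝔉.dot_isometry hgI, hzw]) (by rw [𝔉.dot_isometry hgI, hww])
  have h2 := eIn_conj (inv_mem hg) (inv_mem hgI) (by rw [𝔉.dot_isometry hgI, hzz])
    (by rw [𝔉.dot_isometry hgI, hzw]) h1
  rwa [inv_mulVec_cancel, inv_mulVec_cancel] at h2

/-- Root elements avoiding a frame vector give everything over three elements. -/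
theorem omegaGL_le_of_avoid (hq : Fintype.card F = 3) (hκ : Fintype.card κ = 6) (hι : 5 ≤ Fintype.card ι)
    (hD : 𝔉.Data H Finset.univ) (hgood : ∀ f z w, 𝔉.co z f = 0 → 𝔉.co w f = 0 → 𝔉.dot z z = 0 →
      𝔉.dot z w = 0 → 𝔉.dot w w = 1 → EIn Q H z w) : omegaGL Q ≤ H := by
  classical
  haveI : Fact (Nat.Prime 3) := ⟨Nat.prime_three⟩
  haveI : CharP F 3 := charP_of_card_eq_prime (p := 3) hq
  have h30 : (3 : F) = 0 := by exact_mod_cast CharP.cast_eq_zero F 3
  have hsub : ∀ z u v, 𝔉.dot z z = 0 → 𝔉.dot z u = 0 → 𝔉.dot z v = 0 → EIn Q H z u → EIn Q H z v →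
      EIn Q H z (u - v) := fun z u v hzz hzu hzv hu hv =>
    EIn.sub 𝔉.nondeg hu hv (by rw [𝔉.q_eq, hzz, mul_zero]) (by rw [𝔉.bform_eq, hzu, mul_zero])
      (by rw [𝔉.bform_eq, hzv, mul_zero])
  let R : Set (ι → F) := {z | 𝔉.dot z z = 0 ∧ ∀ w, 𝔉.dot z w = 0 → EIn Q H z w}
  have hfull : ∀ a b c : κ, a ≠ b → a ≠ c → b ≠ c → ∀ τ : F, τ * τ = 1 →
      𝔉.basis a + 𝔉.basis b + τ • 𝔉.basis c ∈ R := by
    intro a b c hab hac hbc τ hτ
    set z := 𝔉.basis a + 𝔉.basis b + τ • 𝔉.basis c with hz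
    clear_value z
    have hzz : 𝔉.dot z z = 0 := by
      simp [hz, co_basis_ne (h := hab), co_basis_ne (h := hab.symm), co_basis_ne (h := hac),
        co_basis_ne (h := hac.symm), co_basis_ne (h := hbc), co_basis_ne (h := hbc.symm)]
      linear_combination hτ + h30
    have hzS : 𝔉.InS {a, b, c} z := by
      rw [hz]
      exact ((𝔉.inS_basis (by simp)).add (𝔉.inS_basis (by simp))).add ((𝔉.inS_basis (by simp)).smul _)
    refine ⟨hzz, full_of_parts (hq ▸ Nat.prime_three) hzz hzS (fun k hk => ?_) fun w hw hzw => ?_⟩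
    · obtain ⟨f, hf⟩ := Finset.exists_mem_notMem_of_card_lt_card (s := ({a, b, c, k} : Finset κ)) (t := Finset.univ)
        (by rw [Finset.card_univ, hκ]; exact (Finset.card_le_four).trans_lt (by norm_num))
      simp only [Finset.mem_univ, Finset.mem_insert, Finset.mem_singleton, not_or, true_and] at hf
      exact hgood f z _ (hzS f (by simp [hf.1, hf.2.1, hf.2.2.1])) (co_basis_ne 𝔉 (Ne.symm hf.2.2.2)) hzz
        (by rw [dot_basis_right]; exact hzS k hk) (by simp)
    obtain ⟨d, hd, e, he, hde⟩ := Finset.one_lt_card.1 (show 1 < ({a, b, c} : Finset κ)ᶜ.card by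
      rw [Finset.card_compl, hκ, three_card hab hac hbc]; norm_num)
    simp only [Finset.mem_compl, Finset.mem_insert, Finset.mem_singleton, not_or] at hd he
    have hzd : 𝔉.dot z (𝔉.basis d) = 0 := by rw [dot_basis_right]; exact hzS d (by simp [hd.1, hd.2.1, hd.2.2])
    have hze : 𝔉.dot z (𝔉.basis e) = 0 := by rw [dot_basis_right]; exact hzS e (by simp [he.1, he.2.1, he.2.2])
    obtain ⟨f, hf⟩ := Finset.exists_mem_notMem_of_card_lt_card (s := ({a, b, c, d, e} : Finset κ)) (t := Finset.univ)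
      (by rw [Finset.card_univ, hκ]; exact (Finset.card_le_five).trans_lt (by norm_num))
    simp only [Finset.mem_univ, Finset.mem_insert, Finset.mem_singleton, not_or, true_and] at hf
    have hzf : 𝔉.co z f = 0 := hzS f (by simp [hf.1, hf.2.1, hf.2.2.1])
    have hdf : 𝔉.co (𝔉.basis d) f = 0 := co_basis_ne 𝔉 (Ne.symm hf.2.2.2.1)
    have hef : 𝔉.co (𝔉.basis e) f = 0 := co_basis_ne 𝔉 (Ne.symm hf.2.2.2.2)
    have hEd : EIn Q H z (𝔉.basis d) := hgood f z _ hzf hdf hzz hzd (by simp)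
    have hEe : EIn Q H z (𝔉.basis e) := hgood f z _ hzf hef hzz hze (by simp)
    have hEz : EIn Q H z z := by
      have h1 := hgood f z (z + 𝔉.basis d) hzf (by rw [co_add, hzf, hdf, add_zero]) hzz (by rw [dot_add_right, hzz, hzd, add_zero]) (by
        have e1 : 𝔉.dot (𝔉.basis d) z = 0 := by rw [dot_comm, hzd]
        have e2 : 𝔉.dot (𝔉.basis d) (𝔉.basis d) = 1 := by simp
        have e3 : 𝔉.dot (z + 𝔉.basis d) (z + 𝔉.basis d) = 𝔉.dot z z + 𝔉.dot z (𝔉.basis d) +
            (𝔉.dot (𝔉.basis d) z + 𝔉.dot (𝔉.basis d) (𝔉.basis d)) := by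
          rw [dot_add_left, dot_add_right, dot_add_right]
        rw [e3, hzz, hzd, e1, e2]; ring)
      have := hsub z _ _ hzz (by rw [dot_add_right, hzz, hzd, add_zero]) hzd h1 hEd
      rwa [add_sub_cancel_right] at this
    set u := 𝔉.basis a - 𝔉.basis b with hu
    clear_value u
    have hzu : 𝔉.dot z u = 0 := by
      simp [hz, hu, co_basis_ne (h := hab), co_basis_ne (h := hab.symm), co_basis_ne (h := hac.symm),
        co_basis_ne (h := hbc.symm)]
    have hEu : EIn Q H z u := by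
      have h1 := hgood f z (u + 𝔉.basis d + 𝔉.basis e) hzf (by
        simp [hu, hdf, hef, co_basis_ne (h := Ne.symm hf.1), co_basis_ne (h := Ne.symm hf.2.1)]) hzz
        (by rw [dot_add_right, dot_add_right, hzu, hzd, hze, add_zero, add_zero]) (by
          simp [hu, co_basis_ne (h := hab), co_basis_ne (h := hab.symm), co_basis_ne (h := hde),
            co_basis_ne (h := Ne.symm hde), co_basis_ne (h := hd.1), co_basis_ne (h := Ne.symm hd.1),
            co_basis_ne (h := hd.2.1), co_basis_ne (h := Ne.symm hd.2.1), co_basis_ne (h := he.1),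
            co_basis_ne (h := Ne.symm he.1), co_basis_ne (h := he.2.1), co_basis_ne (h := Ne.symm he.2.1)]
          linear_combination h30)
      have h2 := hsub z _ _ hzz (by rw [dot_add_right, dot_add_right, hzu, hzd, hze, add_zero, add_zero]) hze h1 hEe
      rw [add_sub_cancel_right] at h2
      have h3 := hsub z _ _ hzz (by rw [dot_add_right, hzu, hzd, add_zero]) hzd h2 hEd
      rwa [add_sub_cancel_right] at h3
    have hw' : w = (τ * 𝔉.co w c) • z + (𝔉.co w a - τ * 𝔉.co w c) • u := by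
      have huS : 𝔉.InS {a, b, c} u := by rw [hu]; exact (𝔉.inS_basis (by simp)).sub (𝔉.inS_basis (by simp))
      refine InS.ext hw ((hzS.smul _).add (huS.smul _)) fun k hk => ?_
      have h1 : 𝔉.co w a + 𝔉.co w b + τ * 𝔉.co w c = 0 := by simpa [hz] using hzw
      simp only [Finset.mem_insert, Finset.mem_singleton] at hk
      rcases hk with rfl | rfl | rfl <;>
        simp [hz, hu, co_basis_ne (h := hab), co_basis_ne (h := hab.symm), co_basis_ne (h := hac),
          co_basis_ne (h := hac.symm), co_basis_ne (h := hbc), co_basis_ne (h := hbc.symm)]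
      · linear_combination h1 - τ * 𝔉.co w c * h30
      · linear_combination -𝔉.co w k * hτ
    rw [hw']
    exact eIn_add hzz (by rw [dot_smul_right, hzz, mul_zero]) (by rw [dot_smul_right, hzu, mul_zero])
      (eIn_smul (hq ▸ Nat.prime_three) hzz hzz hEz _) (eIn_smul (hq ▸ Nat.prime_three) hzz hzu hEu _)
  refine omega_le_of_root_vectors 𝔉.nondeg hι hD.iso R (fun z hz => ⟨by rw [𝔉.q_eq, hz.1, mul_zero],
      fun w hw => hz.2 w ?_⟩) fun u _ hu0 => ?_
  · rw [𝔉.bform_eq] at hw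
    exact (mul_eq_zero.1 hw).resolve_left (mul_ne_zero 𝔉.two_ne 𝔉.lam_ne)
  obtain ⟨c, hc⟩ : ∃ c, 𝔉.co u c ≠ 0 := by
    by_contra h
    push Not at h
    exact hu0 (𝔉.ext_co fun k => by rw [h k, co_zero])
  obtain ⟨a, ha, b, hb, hab⟩ := Finset.one_lt_card.1 (show 1 < (Finset.univ.erase c).card by
    rw [Finset.card_erase_of_mem (Finset.mem_univ c), Finset.card_univ, hκ]; norm_num)
  rw [Finset.mem_erase] at ha hb
  set zp := 𝔉.basis a + 𝔉.basis b + (1 : F) • 𝔉.basis c with hzp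
  set zm := 𝔉.basis a + 𝔉.basis b + (-1 : F) • 𝔉.basis c with hzm
  have hp1 : zp ∈ R := hfull a b c hab ha.1 hb.1 1 (by ring)
  have hm1 : zm ∈ R := hfull a b c hab ha.1 hb.1 (-1) (by ring)
  have hpm : 𝔉.dot zp zm = 1 := by
    simp [hzp, hzm, co_basis_ne (h := hab), co_basis_ne (h := Ne.symm hab), co_basis_ne (h := ha.1),
      co_basis_ne (h := Ne.symm ha.1), co_basis_ne (h := hb.1), co_basis_ne (h := Ne.symm hb.1)]
  have key : ∀ x y, 𝔉.dot x y ≠ 0 → bform 𝔉.nondeg x y ≠ 0 := fun x y h => by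
    rw [𝔉.bform_eq]; exact mul_ne_zero (mul_ne_zero 𝔉.two_ne 𝔉.lam_ne) h
  by_cases hd : 𝔉.dot zp u = 0
  · refine ⟨zm, hm1, zp, hp1, key _ _ (by rw [dot_comm, hpm]; exact one_ne_zero), key _ _ fun h' => hc ?_⟩
    have : 2 * 𝔉.co u c = 0 := by
      simp [hzp, hzm] at hd h'
      linear_combination hd - h'
    exact (mul_eq_zero.1 this).resolve_left 𝔉.two_ne
  · exact ⟨zp, hp1, zm, hm1, key _ _ (by rw [hpm]; exact one_ne_zero), key _ _ hd⟩

/-- A non-monomial member fixing the line of a frame vector gives everything over three elements. -/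
theorem omegaGL_le_of_point_three (hq : Fintype.card F = 3) (hκ : Fintype.card κ = 6)
    (hι : 5 ≤ Fintype.card ι) (hD : 𝔉.Data H Finset.univ) {k : κ} {g : GL ι F} (hg : g ∈ H)
    (hgk : ∃ s : F, (g : Matrix ι ι F) *ᵥ 𝔉.basis k = s • 𝔉.basis k) (hn : ¬ 𝔉.Mono Finset.univ g) :
    omegaGL Q ≤ H := by
  classical
  have hunit : ∀ (x : GL ι F), x ∈ H → ∀ s : F, (x : Matrix ι ι F) *ᵥ 𝔉.basis k = s • 𝔉.basis k → s * s = 1 := by
    intro x hx s hs
    have h := 𝔉.dot_isometry (hD.iso hx) (𝔉.basis k) (𝔉.basis k)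
    rw [hs] at h
    simpa using h
  let K : Subgroup (GL ι F) :=
    { carrier := {x | x ∈ H ∧ ∃ s : F, (x : Matrix ι ι F) *ᵥ 𝔉.basis k = s • 𝔉.basis k}
      one_mem' := ⟨one_mem _, 1, by simp⟩
      mul_mem' := by
        rintro a b ⟨ha, s, hs⟩ ⟨hb, t, ht⟩
        exact ⟨mul_mem ha hb, t * s, by
          rw [Units.val_mul, ← Matrix.mulVec_mulVec, ht, Matrix.mulVec_smul, hs, smul_smul]⟩
      inv_mem' := by
        rintro a ⟨ha, s, hs⟩
        refine ⟨inv_mem ha, s, ?_⟩
        have h1 := congrArg (fun v => ((a⁻¹ : GL ι F) : Matrix ι ι F) *ᵥ v) hs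
        simp only [inv_mulVec_cancel, Matrix.mulVec_smul] at h1
        conv_rhs => rw [h1]
        rw [smul_smul, hunit a ha s hs, one_smul] }
  set J := Finset.univ.erase k with hJ
  have hmemJ : ∀ {l : κ}, l ≠ k → l ∈ J := fun h => Finset.mem_erase.2 ⟨h, Finset.mem_univ _⟩
  have hDK : 𝔉.Data K J := by
    refine ⟨fun x hx => hD.iso hx.1, fun x hx v hv l hl => ?_, fun a ha b hb hab => ?_,
      fun a ha b hb c hc hab hbc hac => ?_⟩
    · obtain rfl : l = k := by simpa [hJ] using hl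
      obtain ⟨hxH, s, hs⟩ := hx
      have h := 𝔉.dot_isometry (hD.iso hxH) v (𝔉.basis l)
      rw [hs, dot_smul_right, dot_basis_right, dot_basis_right, hv l (by simp [hJ])] at h
      exact (mul_eq_zero.1 h).resolve_left fun h0 => by simpa [h0] using hunit x hxH s hs
    · obtain ⟨x, hx, hxk⟩ := hD.sgn a (Finset.mem_univ _) b (Finset.mem_univ _) hab
      refine ⟨x, ⟨hx, 1, ?_⟩, fun l _ => hxk l (Finset.mem_univ _)⟩
      rw [hxk k (Finset.mem_univ _), if_neg]
      rintro (rfl | rfl)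
      exacts [(Finset.mem_erase.1 ha).1 rfl, (Finset.mem_erase.1 hb).1 rfl]
    · obtain ⟨x, hx, hxk⟩ := hD.cyc a (Finset.mem_univ _) b (Finset.mem_univ _) c (Finset.mem_univ _) hab hbc hac
      refine ⟨x, ⟨hx, 1, ?_⟩, fun l _ => hxk l (Finset.mem_univ _)⟩
      rw [hxk k (Finset.mem_univ _), if_neg (fun e : k = a => (Finset.mem_erase.1 ha).1 e.symm),
        if_neg (fun e : k = b => (Finset.mem_erase.1 hb).1 e.symm),
        if_neg (fun e : k = c => (Finset.mem_erase.1 hc).1 e.symm), one_smul]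
  have hJc : J.card = 5 := by rw [hJ, Finset.card_erase_of_mem (Finset.mem_univ _), Finset.card_univ, hκ]
  have hnK : ¬ ∀ x ∈ K, 𝔉.Mono J x := fun h => hn fun i _ => by
    by_cases hik : i = k
    · subst hik
      obtain ⟨s, hs⟩ := hgk
      exact ⟨i, Finset.mem_univ _, s, hs⟩
    · obtain ⟨j, _, c, hc⟩ := h g ⟨hg, hgk⟩ i (hmemJ hik)
      exact ⟨j, Finset.mem_univ _, c, hc⟩
  have hinJ : ∀ {x}, 𝔉.co x k = 0 → 𝔉.InS J x := fun {x} hx l hl => by
    obtain rfl : l = k := by simpa [hJ] using hl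
    exact hx
  refine omegaGL_le_of_avoid hq hκ hι hD (avoid_all hκ hD (k := k) fun z w hzk hwk hzz hzw hww => ?_)
  have hz := hinJ hzk
  have hw := hinJ hwk
  have h22 : (2 : F)⁻¹ * (2 : F)⁻¹ = 1 := by
    have h30 : (3 : F) = 0 := by
      haveI : Fact (Nat.Prime 3) := ⟨Nat.prime_three⟩
      haveI : CharP F 3 := charP_of_card_eq_prime (p := 3) hq
      exact_mod_cast CharP.cast_eq_zero F 3
    rw [← mul_inv, show (2 : F) * 2 = 1 by linear_combination h30, inv_one]
  obtain ⟨x, hx, hxv⟩ := root_five_three hq hJc hDK hnK z ((2 : F)⁻¹ • w) hz (hw.smul _) hzz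
    (by rw [dot_smul_right, hzw, mul_zero]) (by rw [dot_smul_left, dot_smul_right, hww, mul_one, h22])
  have hxxJ : ∀ v, 𝔉.InS J v → ((x * x : GL ι F) : Matrix ι ι F) *ᵥ v = eichlerMat Q z w *ᵥ v := by
    intro v hv
    rw [Units.val_mul, ← Matrix.mulVec_mulVec, hxv v hv,
      hxv _ (hv.eichler hz (hw.smul _)), Matrix.mulVec_mulVec,
      eichlerMat_mul 𝔉.nondeg (by rw [𝔉.q_eq, hzz, mul_zero])
        (by rw [𝔉.bform_eq, dot_smul_right, hzw, mul_zero, mul_zero])
        (by rw [𝔉.bform_eq, dot_smul_right, hzw, mul_zero, mul_zero]), ← add_smul]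
    congr 3
    rw [show (2 : F)⁻¹ + 2⁻¹ = 1 by rw [← two_mul, mul_inv_cancel₀ 𝔉.two_ne], one_smul]
  refine ⟨x * x, mul_mem hx.1 hx.1, ?_⟩
  refine Matrix.toLin'.injective (𝔉.basis.ext fun l => ?_)
  simp only [Matrix.toLin'_apply]
  by_cases hlk : l = k
  · subst hlk
    obtain ⟨hxH, s, hs⟩ := hx
    rw [eichler_fix_outside hz hw (fun h => (Finset.mem_erase.1 h).1 rfl), Units.val_mul,
      ← Matrix.mulVec_mulVec, hs, Matrix.mulVec_smul, hs, smul_smul, hunit x hxH s hs, one_smul]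
  · exact hxxJ _ (𝔉.inS_basis (hmemJ hlk))

/-- A non-monomial member fixing the line of a frame vector gives everything. -/
theorem omegaGL_le_of_point_all (hp : (Fintype.card F).Prime) (hκ : Fintype.card κ = 6)
    (hι : 5 ≤ Fintype.card ι) (hD : 𝔉.Data H Finset.univ) {k : κ} {g : GL ι F} (hg : g ∈ H)
    (hgk : ∃ s : F, (g : Matrix ι ι F) *ᵥ 𝔉.basis k = s • 𝔉.basis k) (hn : ¬ 𝔉.Mono Finset.univ g) :
    omegaGL Q ≤ H := by
  by_cases h3 : (3 : F) = 0
  · exact omegaGL_le_of_point_three (card_eq_three_of hp h3) hκ hι hD hg hgk hn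
  · exact omegaGL_le_of_point hp h3 hκ hι hD hg hgk hn

end CfsgLib.FrameSix90
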