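import Cfsg.Agent.FrameSix90.Double
import Cfsg.Agent.FrameSix90.Three
import Cfsg.Agent.OTensorSq17.Groups
import Cfsg.Agent.OrthGeo.OddInvolutions

/-!
Six frame vectors: a group with the even sign changes and three-cycles which is not monomial contains the
commutator subgroup of the isometry group.
-/

set_option autoImplicit false
set_option linter.unusedSectionVars false

namespace CfsgLib.FrameSix90

open Cfsg.Geo Module CfsgLib.OrthGeo CfsgLib.OrthMono17 CfsgLib.OrthMono17.Frame
open scoped Matrix MatrixGroups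

variable {ι : Type} [Fintype ι] [DecidableEq ι] {F : Type*} [Field F] [Fintype F]
variable {Q : (ι → F) → F} {κ : Type} [Fintype κ] [DecidableEq κ] {𝔉 : Frame Q κ}
variable {H : Subgroup (GL ι F)}

/-- The monomial elements. -/
def monoSubgroup (𝔉 : Frame Q κ) : Subgroup (GL ι F) where
  carrier := {g | 𝔉.Mono Finset.univ g}
  one_mem' := mono_one
  mul_mem' hg hh := hg.mul hh
  inv_mem' hg := hg.inv

lemma trace_eq_sum_co (𝔉 : Frame Q κ) (g : GL ι F) :
    (g : Matrix ι ι F).trace = ∑ k, 𝔉.co ((g : Matrix ι ι F) *ᵥ 𝔉.basis k) k := by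
  rw [← Matrix.trace_toLin'_eq, LinearMap.trace_eq_matrix_trace F 𝔉.basis, Matrix.trace]
  refine Finset.sum_congr rfl fun k _ => ?_
  rw [Matrix.diag_apply, LinearMap.toMatrix_apply, Matrix.toLin'_apply]
  rfl

namespace Six

variable (h : Six 𝔉 H)
include h

lemma six_cover {a b p q r s : κ} (hd : ({a, b, p, q, r, s} : Finset κ).card = 6) (k : κ) :
    k ∈ ({a, b, p, q, r, s} : Finset κ) := by
  rw [Finset.eq_univ_of_card _ (hd.trans h.card_six.symm)]
  exact Finset.mem_univ k

/-- Centralisers of monomial involutions other than minus one are monomial. -/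
theorem mono_of_commute_involution {c g : GL ι F} (hcH : c ∈ H) (hc : 𝔉.Mono Finset.univ c) (hcc : c * c = 1)
    (hc1 : c ≠ 1) (hcn : c ≠ -1) (hg : g ∈ H) (hgc : g * c = c * g) : 𝔉.Mono Finset.univ g := by
  classical
  obtain ⟨σ, d, hd2, hd⟩ := mono_signed (h.mem_iso hcH) hc
  have hinv : ∀ k, σ (σ k) = k ∧ d k * d (σ k) = 1 := by
    intro k
    have h1 := congrArg (fun x : GL ι F => (x : Matrix ι ι F) *ᵥ 𝔉.basis k) hcc
    simp only [mul_mulVec, hd, Matrix.mulVec_smul, smul_smul, Units.val_one, Matrix.one_mulVec] at h1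
    have hσ : σ (σ k) = k := by
      by_contra hn
      have := congrArg (fun v => 𝔉.co v k) h1
      simp [co_basis_ne (h := hn)] at this
    refine ⟨hσ, ?_⟩
    rw [hσ] at h1
    have := congrArg (fun v => 𝔉.co v k) h1
    simpa using this
  have hdet := h.det_one c hcH
  rw [det_monomial hd] at hdet
  by_cases hσ1 : σ = 1
  · -- a diagonal involution is a sign change or minus one
    subst hσ1
    rw [map_one, Units.val_one, Int.cast_one, one_mul] at hdet
    set S := Finset.univ.filter fun k => d k = -1 with hS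
    have hval : ∀ k, d k = if k ∈ S then -1 else 1 := fun k => by
      by_cases hk : d k = -1
      · rw [if_pos (by simp [hS, hk]), hk]
      · rw [if_neg (by simp [hS, hk]), (mul_self_eq_one_iff.1 (hd2 k)).resolve_right hk]
    have hprod : (-1 : F) ^ S.card = 1 := by
      have h5 := hdet
      rw [Finset.prod_congr rfl (fun k _ => hval k), Finset.prod_ite_mem, Finset.univ_inter, Finset.prod_const] at h5
      exact h5
    have heven : Even S.card := by
      rcases Nat.even_or_odd S.card with he | ho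
      · exact he
      · rw [ho.neg_one_pow] at hprod
        exact absurd (show (2 : F) = 0 by linear_combination -hprod) 𝔉.two_ne
    obtain ⟨m, hm⟩ := heven
    have hle : S.card ≤ 6 := h.card_six ▸ Finset.card_le_univ S
    have hsgn : ∀ T : Finset κ, T.card = 2 → ∀ x : GL ι F,
        (∀ k, (x : Matrix ι ι F) *ᵥ 𝔉.basis k = (if k ∈ T then (-1 : F) else 1) • 𝔉.basis k) →
        g * x = x * g → 𝔉.Mono Finset.univ g := by
      intro T hT x hx hgx
      obtain ⟨a, b, hab, rfl⟩ := Finset.card_eq_two.1 hT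
      exact h.mono_of_commute_sgn (t := x) (fun k => by rw [hx k]; simp) hab hg hgx
    have hdk : ∀ k, (c : Matrix ι ι F) *ᵥ 𝔉.basis k = d k • 𝔉.basis k := hd
    rcases (show S.card = 0 ∨ S.card = 2 ∨ S.card = 4 ∨ S.card = 6 by omega) with h0 | h2 | h4 | h6
    · refine absurd (gl_ext_basis (𝔉 := 𝔉) fun k => ?_) hc1
      rw [hdk, hval, if_neg (by simp [Finset.card_eq_zero.1 h0]), Units.val_one, Matrix.one_mulVec, one_smul]
    · exact hsgn S h2 c (fun k => by rw [hdk, hval]) hgc
    · refine hsgn Sᶜ (by rw [Finset.card_compl, h.card_six, h4]) (-c) (fun k => ?_) (by rw [mul_neg, neg_mul, hgc])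
      rw [Units.val_neg, Matrix.neg_mulVec, hdk, hval, ← neg_smul]
      congr 1
      by_cases hk : k ∈ S <;> simp [hk]
    · refine absurd (gl_ext_basis (𝔉 := 𝔉) fun k => ?_) hcn
      rw [hdk, hval, if_pos (by rw [Finset.eq_univ_of_card S (h6.trans h.card_six.symm)]; simp), Units.val_neg,
        Units.val_one, Matrix.neg_mulVec, Matrix.one_mulVec, neg_one_smul]
  -- two pairs: an invariant one and a second one
  obtain ⟨r, s, x, y, u, v, hrs, hxy, huv, hcard, hxyσ, hrsσ, hrsinv⟩ :
      ∃ r s x y u v : κ, r ≠ s ∧ x ≠ y ∧ u ≠ v ∧ ({r, s, x, y, u, v} : Finset κ).card = 6 ∧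
        (∀ k, (σ k = x ∨ σ k = y) ↔ (k = x ∨ k = y)) ∧ (∀ k, (σ k = r ∨ σ k = s) ↔ (k = r ∨ k = s)) ∧
        ((∀ k, (k = r ∨ k = s) ↔ σ k = k) ∨ ∀ k, (k = r ∨ k = s) ↔ σ k ≠ k) := by
    obtain ⟨a, ha⟩ : ∃ a, σ a ≠ a := by
      by_contra hh
      push Not at hh
      exact hσ1 (Equiv.ext hh)
    set b := σ a with hb
    have hba : σ b = a := (hinv a).1
    have hpairinv : ∀ x, ∀ k, (σ k = x ∨ σ k = σ x) ↔ (k = x ∨ k = σ x) := by
      intro x k
      constructor
      · rintro (h' | h')
        exacts [Or.inr (by rw [← h', (hinv k).1]), Or.inl (σ.injective h')]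
      · rintro (rfl | rfl)
        exacts [Or.inr rfl, Or.inl (hinv x).1]
    by_cases hp : ∃ p, σ p ≠ p ∧ p ≠ a ∧ p ≠ b
    · obtain ⟨p, hp, hpa, hpb⟩ := hp
      set q := σ p with hq
      have hqp : σ q = p := (hinv p).1
      have hqa : q ≠ a := fun h' => hpb (by rw [← hqp, h'])
      have hqb : q ≠ b := fun h' => hpa (σ.injective h')
      obtain ⟨r, hr⟩ := h.exists_ne {a, b, p, q} ((Finset.card_le_four).trans (by norm_num))
      simp only [Finset.mem_insert, Finset.mem_singleton, not_or] at hr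
      obtain ⟨s, hs⟩ := h.exists_ne {a, b, p, q, r} Finset.card_le_five
      simp only [Finset.mem_insert, Finset.mem_singleton, not_or] at hs
      obtain ⟨hra, hrb, hrp, hrq⟩ := hr
      obtain ⟨hsa, hsb, hsp, hsq, hsr⟩ := hs
      have hcard : ({r, s, a, b, p, q} : Finset κ).card = 6 := by
        rw [Finset.card_insert_of_notMem (by simp [(Ne.symm hsr), hra, hrb, hrp, hrq]),
          Finset.card_insert_of_notMem (by simp [hsa, hsb, hsp, hsq]),
          Finset.card_insert_of_notMem (by simp [Ne.symm ha, hpa.symm, hqa.symm]),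
          Finset.card_insert_of_notMem (by simp [hpb.symm, hqb.symm]), Finset.card_pair (Ne.symm hp)]
      have hrσ : σ r = r := by
        by_contra hrr
        have hσr : σ r = s := by
          have hm := h.six_cover hcard (σ r)
          simp only [Finset.mem_insert, Finset.mem_singleton] at hm
          rcases hm with h' | h' | h' | h' | h' | h'
          · exact absurd h' hrr
          · exact h'
          · exact absurd (by rw [hb, ← h', (hinv r).1]) hrb
          · exact absurd (σ.injective h') hra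
          · exact absurd (by rw [hq, ← h', (hinv r).1]) hrq
          · exact absurd (σ.injective h') hrp
        have hσs : σ s = r := by rw [← hσr]; exact (hinv r).1
        have hσeq : σ = Equiv.swap r s * (Equiv.swap a b * Equiv.swap p q) := by
          refine Equiv.ext fun k => ?_
          have hk := h.six_cover hcard k
          simp only [Finset.mem_insert, Finset.mem_singleton] at hk
          rcases hk with rfl | rfl | rfl | rfl | rfl | rfl
          · rw [hσr]; simp [Equiv.swap_apply_def, hra, hrb, hrp, hrq]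
          · rw [hσs]; simp [Equiv.swap_apply_def, hsa, hsb, hsp, hsq, hsr]
          · rw [← hb]; simp [Equiv.swap_apply_def, hpa.symm, hqa.symm, (Ne.symm hrb), (Ne.symm hsb)]
          · rw [hba]; simp [Equiv.swap_apply_def, hpb.symm, hqb.symm, ha, (Ne.symm hra), (Ne.symm hsa)]
          · rw [← hq]; simp [Equiv.swap_apply_def, hqa, hqb, (Ne.symm hrq), (Ne.symm hsq)]
          · rw [hqp]; simp [Equiv.swap_apply_def, hp, hpa, hpb, (Ne.symm hrp), (Ne.symm hsp)]
        have hprod : ∏ k, d k = 1 := by
          rw [← Finset.eq_univ_of_card _ (hcard.trans h.card_six.symm),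
            Finset.prod_insert (by simp [(Ne.symm hsr), hra, hrb, hrp, hrq]),
            Finset.prod_insert (by simp [hsa, hsb, hsp, hsq]),
            Finset.prod_insert (by simp [Ne.symm ha, hpa.symm, hqa.symm]),
            Finset.prod_insert (by simp [hpb.symm, hqb.symm]), Finset.prod_pair (Ne.symm hp), ← hσr]
          have e1 := (hinv r).2
          have e2 : d a * d b = 1 := (hinv a).2
          have e3 : d p * d q = 1 := (hinv p).2
          linear_combination e1 * (d a * d b * (d p * d q)) + e2 * (d p * d q) + e3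
        rw [hprod, hσeq] at hdet
        simp only [map_mul, Equiv.Perm.sign_swap (Ne.symm hsr), Equiv.Perm.sign_swap (Ne.symm ha),
          Equiv.Perm.sign_swap (Ne.symm hp)] at hdet
        push_cast at hdet
        exact 𝔉.two_ne (by linear_combination -hdet)
      have hsσ : σ s = s := by
        have hm := h.six_cover hcard (σ s)
        simp only [Finset.mem_insert, Finset.mem_singleton] at hm
        rcases hm with h' | h' | h' | h' | h' | h'
        · exact absurd (σ.injective (h'.trans hrσ.symm)) hsr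
        · exact h'
        · exact absurd (by rw [hb, ← h', (hinv s).1]) hsb
        · exact absurd (σ.injective h') hsa
        · exact absurd (by rw [hq, ← h', (hinv s).1]) hsq
        · exact absurd (σ.injective h') hsp
      refine ⟨r, s, a, b, p, q, (Ne.symm hsr), Ne.symm ha, Ne.symm hp, hcard, hpairinv a, fun k => ?_, Or.inl fun k => ?_⟩
      · constructor
        · rintro (h' | h')
          exacts [Or.inl (σ.injective (h'.trans hrσ.symm)), Or.inr (σ.injective (h'.trans hsσ.symm))]
        · rintro (rfl | rfl)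
          exacts [Or.inl hrσ, Or.inr hsσ]
      · constructor
        · rintro (rfl | rfl) <;> assumption
        · intro hk
          have hm := h.six_cover hcard k
          simp only [Finset.mem_insert, Finset.mem_singleton] at hm
          rcases hm with h' | h' | h' | h' | h' | h'
          · exact Or.inl h'
          · exact Or.inr h'
          all_goals
            subst h'
            first
            | exact absurd hk ha
            | exact absurd hk hp
            | exact absurd (hk.symm.trans hba) ha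
            | exact absurd (hk.symm.trans hqp) hp
    · push Not at hp
      have hfix : ∀ k, k ≠ a → k ≠ b → σ k = k := fun k hka hkb => by
        by_contra hn
        exact hkb (hp k hn hka)
      obtain ⟨x, hx⟩ := h.exists_ne {a, b} ((Finset.card_le_two).trans (by norm_num))
      simp only [Finset.mem_insert, Finset.mem_singleton, not_or] at hx
      obtain ⟨y, hy⟩ := h.exists_ne {a, b, x} ((Finset.card_le_three).trans (by norm_num))
      simp only [Finset.mem_insert, Finset.mem_singleton, not_or] at hy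
      obtain ⟨u, hu⟩ := h.exists_ne {a, b, x, y} ((Finset.card_le_four).trans (by norm_num))
      simp only [Finset.mem_insert, Finset.mem_singleton, not_or] at hu
      obtain ⟨v, hv⟩ := h.exists_ne {a, b, x, y, u} Finset.card_le_five
      simp only [Finset.mem_insert, Finset.mem_singleton, not_or] at hv
      refine ⟨a, b, x, y, u, v, Ne.symm ha, Ne.symm hy.2.2, Ne.symm hv.2.2.2.2, ?_, fun k => ?_, hpairinv a,
        Or.inr fun k => ?_⟩
      · rw [Finset.card_insert_of_notMem (by simp [Ne.symm ha, Ne.symm hx.1, Ne.symm hy.1, Ne.symm hu.1, Ne.symm hv.1]),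
          Finset.card_insert_of_notMem (by simp [Ne.symm hx.2, Ne.symm hy.2.1, Ne.symm hu.2.1, Ne.symm hv.2.1]),
          Finset.card_insert_of_notMem (by simp [Ne.symm hy.2.2, Ne.symm hu.2.2.1, Ne.symm hv.2.2.1]),
          Finset.card_insert_of_notMem (by simp [Ne.symm hu.2.2.2, Ne.symm hv.2.2.2.1]),
          Finset.card_pair (Ne.symm hv.2.2.2.2)]
      · have hxσ := hfix x hx.1 hx.2
        have hyσ := hfix y hy.1 hy.2.1
        constructor
        · rintro (h' | h')
          exacts [Or.inl (σ.injective (h'.trans hxσ.symm)), Or.inr (σ.injective (h'.trans hyσ.symm))]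
        · rintro (rfl | rfl)
          exacts [Or.inl hxσ, Or.inr hyσ]
      · constructor
        · rintro (rfl | rfl)
          · exact ha
          · rw [hba]; exact Ne.symm ha
        · intro hk
          by_cases hka : k = a
          exacts [Or.inl hka, Or.inr (hp k hk hka)]
  obtain ⟨t, htH, ht⟩ := h.exists_sgn hrs
  obtain ⟨e, heH, he⟩ := h.exists_sgn hxy
  obtain ⟨w, hwH, hw⟩ := h.exists_sgn huv
  have hct : c * t = t * c := commute_sgn_of_perm ht σ d hd hrsσ
  have hce : c * e = e * c := commute_sgn_of_perm he σ d hd hxyσ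
  have hmem : ∀ k, k ∈ ({r, s, x, y, u, v} : Finset κ) := h.six_cover hcard
  have hdis : ∀ k, ¬ ((k = r ∨ k = s) ∧ (k = x ∨ k = y)) ∧ ¬ ((k = r ∨ k = s) ∧ (k = u ∨ k = v)) ∧
      ¬ ((k = x ∨ k = y) ∧ (k = u ∨ k = v)) := by
    intro k
    have hsurj : Function.Surjective ![r, s, x, y, u, v] := fun k => by
      have hk := hmem k
      simp only [Finset.mem_insert, Finset.mem_singleton] at hk
      rcases hk with rfl | rfl | rfl | rfl | rfl | rfl
      exacts [⟨0, rfl⟩, ⟨1, rfl⟩, ⟨2, rfl⟩, ⟨3, rfl⟩, ⟨4, rfl⟩, ⟨5, rfl⟩]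
    have finj : Function.Injective ![r, s, x, y, u, v] :=
      ((Fintype.bijective_iff_surjective_and_card _).2 ⟨hsurj, by rw [h.card_six, Fintype.card_fin]⟩).injective
    have d : ∀ i j : Fin 6, i ≠ j → ![r, s, x, y, u, v] i ≠ ![r, s, x, y, u, v] j := fun i j hij e' => hij (finj e')
    refine ⟨fun ⟨h1, h2⟩ => ?_, fun ⟨h1, h2⟩ => ?_, fun ⟨h1, h2⟩ => ?_⟩
    · rcases h1 with h1 | h1 <;> rcases h2 with h2 | h2
      exacts [d 0 2 (by decide) (h1.symm.trans h2), d 0 3 (by decide) (h1.symm.trans h2),
        d 1 2 (by decide) (h1.symm.trans h2), d 1 3 (by decide) (h1.symm.trans h2)]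
    · rcases h1 with h1 | h1 <;> rcases h2 with h2 | h2
      exacts [d 0 4 (by decide) (h1.symm.trans h2), d 0 5 (by decide) (h1.symm.trans h2),
        d 1 4 (by decide) (h1.symm.trans h2), d 1 5 (by decide) (h1.symm.trans h2)]
    · rcases h1 with h1 | h1 <;> rcases h2 with h2 | h2
      exacts [d 2 4 (by decide) (h1.symm.trans h2), d 2 5 (by decide) (h1.symm.trans h2),
        d 3 4 (by decide) (h1.symm.trans h2), d 3 5 (by decide) (h1.symm.trans h2)]
  have hte : t * e = -w := gl_ext_basis (𝔉 := 𝔉) fun k => by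
    rw [mul_mulVec, he k, Matrix.mulVec_smul, ht k, Units.val_neg, Matrix.neg_mulVec, hw k, smul_smul, ← neg_smul]
    congr 1
    obtain ⟨d1, d2, d3⟩ := hdis k
    have hk := hmem k
    simp only [Finset.mem_insert, Finset.mem_singleton] at hk
    by_cases h1 : k = r ∨ k = s
    · rw [if_pos h1, if_neg (fun h2 => d1 ⟨h1, h2⟩), if_neg (fun h2 => d2 ⟨h1, h2⟩)]; ring
    by_cases h2 : k = x ∨ k = y
    · rw [if_neg h1, if_pos h2, if_neg (fun h3 => d3 ⟨h2, h3⟩)]; ring
    · rw [if_neg h1, if_neg h2, if_pos (by tauto)]; ring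
  have hcomte : t * e = e * t := gl_ext_basis (𝔉 := 𝔉) fun k => by
    rw [mul_mulVec, mul_mulVec, ht k, he k, Matrix.mulVec_smul, Matrix.mulVec_smul, ht k, he k, smul_smul, smul_smul,
      mul_comm]
  -- apply the theorem on isolated involutions in the centraliser
  let Γ := H ⊓ Subgroup.centralizer ({c} : Set (GL ι F))
  have hΓ : ∀ z : GL ι F, z ∈ Γ ↔ z ∈ H ∧ z * c = c * z := fun z => by
    show z ∈ H ∧ z ∈ Subgroup.centralizer ({c} : Set (GL ι F)) ↔ _
    rw [Subgroup.mem_centralizer_singleton_iff]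
  let t' : Γ := ⟨t, (hΓ t).2 ⟨htH, hct.symm⟩⟩
  let e' : Γ := ⟨e, (hΓ e).2 ⟨heH, hce.symm⟩⟩
  let K : Subgroup Γ := (monoSubgroup 𝔉).comap Γ.subtype
  have hK : ∀ z : Γ, z ∈ K ↔ 𝔉.Mono Finset.univ (z : GL ι F) := fun z => Iff.rfl
  have hgl : ∀ {z : Γ}, z ≠ 1 ↔ (z : GL ι F) ≠ 1 := fun {z} => not_congr OneMemClass.coe_eq_one.symm
  have hsgn1 : ∀ {z : GL ι F} {i j : κ}, IsSgn 𝔉 z i j → z ≠ 1 := fun {z i j} hz h1 => by
    have := hz i
    rw [h1, Units.val_one, Matrix.one_mulVec, if_pos (Or.inl rfl)] at this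
    have := congrArg (fun v => 𝔉.co v i) this
    simp at this
    exact 𝔉.two_ne (by linear_combination this)
  have htop : K = ⊤ := by
    refine OTensorSq17.eq_top_of_isolated_four K (t := t') (e := e') (Subtype.ext ht.mul_self) (hgl.2 (hsgn1 ht))
      (Subtype.ext he.mul_self) (hgl.2 (hsgn1 he)) (fun h' => ?_) (Subtype.ext hcomte) (fun z hz => ?_)
      (fun z hz => (hK z).2 (h.mono_of_commute_sgn ht hrs ((hΓ _).1 z.2).1 (congrArg Subtype.val hz)))
      (fun z hz => (hK z).2 (h.mono_of_commute_sgn he hxy ((hΓ _).1 z.2).1 (congrArg Subtype.val hz)))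
      fun z hz => (hK z).2 (h.mono_of_commute_sgn hw huv ((hΓ _).1 z.2).1 ?_)
    · have := congrArg (fun v : GL ι F => 𝔉.co ((v : Matrix ι ι F) *ᵥ 𝔉.basis r) r) (congrArg Subtype.val h')
      simp only [t', e', ht r, true_or, if_true, he r, if_neg (fun h2 => (hdis r).1 ⟨Or.inl rfl, h2⟩), co_smul,
        co_basis_self, mul_one] at this
      exact 𝔉.two_ne (by linear_combination -this)
    · obtain ⟨hzH, hzc⟩ := (hΓ _).1 z.2
      have hzt : t * ((z : GL ι F) * t * (z : GL ι F)⁻¹) = (z : GL ι F) * t * (z : GL ι F)⁻¹ * t := by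
        have := congrArg Subtype.val hz.eq
        simpa [t'] using this
      have hcm := h.mono_of_commute_sgn ht hrs (mul_mem (mul_mem hzH htH) (inv_mem hzH)) hzt.symm
      have hzM := h.mono_of_conj_mono ht hrs htH hzH hcm
      obtain ⟨π, p, hp2, hp⟩ := mono_signed (h.mem_iso hzH) hzM
      have hcomm : ∀ k, π (σ k) = σ (π k) := by
        intro k
        have h1 := congrArg (fun x : GL ι F => (x : Matrix ι ι F) *ᵥ 𝔉.basis k) hzc
        simp only [mul_mulVec, hd, hp, Matrix.mulVec_smul, smul_smul] at h1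
        by_contra hn
        have := congrArg (fun v => 𝔉.co v (π (σ k))) h1
        simp [co_basis_ne (h := Ne.symm hn)] at this
        rcases this with h0 | h0
        · simpa [h0] using hd2 k
        · simpa [h0] using hp2 (σ k)
      have hinvk : ∀ k, (π k = r ∨ π k = s) ↔ (k = r ∨ k = s) := by
        intro k
        rcases hrsinv with hi | hi
        · rw [hi, hi, ← hcomm]; exact π.injective.eq_iff
        · rw [hi, hi, ← hcomm]; exact π.injective.eq_iff.not
      refine Subtype.ext ?_
      show (z : GL ι F) * t * (z : GL ι F)⁻¹ = t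
      rw [commute_sgn_of_perm ht π p hp hinvk, mul_inv_cancel_right]
    · have h1 := congrArg Subtype.val hz
      simp only [Subgroup.coe_mul, t', e', hte, mul_neg, neg_mul, neg_inj] at h1
      exact h1
  exact (hK ⟨g, (hΓ g).2 ⟨hg, hgc⟩⟩).1 (htop ▸ Subgroup.mem_top _)

/-- Every member is monomial. -/
theorem mono_of_six {g : GL ι F} (hg : g ∈ H) : 𝔉.Mono Finset.univ g := by
  classical
  by_contra hnm
  have h2 := 𝔉.two_ne
  obtain ⟨a, ha⟩ := h.exists_ne ∅ (by simp)
  obtain ⟨b, hb⟩ := h.exists_ne {a} (by simp)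
  obtain ⟨p, hp⟩ := h.exists_ne {a, b} ((Finset.card_le_two).trans (by norm_num))
  obtain ⟨q, hq⟩ := h.exists_ne {a, b, p} ((Finset.card_le_three).trans (by norm_num))
  obtain ⟨r, hr⟩ := h.exists_ne {a, b, p, q} ((Finset.card_le_four).trans (by norm_num))
  obtain ⟨s, hs⟩ := h.exists_ne {a, b, p, q, r} Finset.card_le_five
  simp only [Finset.mem_insert, Finset.mem_singleton, not_or] at hb hp hq hr hs
  obtain ⟨hpa, hpb⟩ := hp
  obtain ⟨hqa, hqb, hqp⟩ := hq
  obtain ⟨hra, hrb, hrp, hrq⟩ := hr
  obtain ⟨hsa, hsb, hsp, hsq, hsr⟩ := hs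
  have hcard : ({a, b, p, q, r, s} : Finset κ).card = 6 := by
    rw [Finset.card_insert_of_notMem (by simp [Ne.symm hb, (Ne.symm hpa), (Ne.symm hqa), (Ne.symm hra), (Ne.symm hsa)]),
      Finset.card_insert_of_notMem (by simp [(Ne.symm hpb), (Ne.symm hqb), (Ne.symm hrb), (Ne.symm hsb)]),
      Finset.card_insert_of_notMem (by simp [(Ne.symm hqp), (Ne.symm hrp), (Ne.symm hsp)]),
      Finset.card_insert_of_notMem (by simp [(Ne.symm hrq), (Ne.symm hsq)]), Finset.card_pair (Ne.symm hsr)]
  obtain ⟨z, hzH, hzk⟩ := h.exists_double (Ne.symm hb) (Ne.symm hpa) (Ne.symm hqa) (Ne.symm hpb) (Ne.symm hqb) (Ne.symm hqp)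
  have hzz : z * z = 1 := gl_ext_basis (𝔉 := 𝔉) fun k => by
    rw [mul_mulVec, hzk, hzk, Units.val_one, Matrix.one_mulVec]
    congr 1
    simp only [Equiv.swap_apply_def]
    grind
  have hzM : 𝔉.Mono Finset.univ z := fun k _ => ⟨_, Finset.mem_univ _, 1, by rw [one_smul]; exact hzk k⟩
  have hza : (z : Matrix ι ι F) *ᵥ 𝔉.basis a = 𝔉.basis b := by
    rw [hzk, Equiv.swap_apply_of_ne_of_ne (Ne.symm hpa) (Ne.symm hqa), Equiv.swap_apply_left]
  have hndiag : ∀ c : F, (z : Matrix ι ι F) *ᵥ 𝔉.basis a ≠ c • 𝔉.basis a := fun c h' => by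
    rw [hza] at h'
    have := congrArg (fun v => 𝔉.co v b) h'
    simp [co_basis_ne (h := Ne.symm hb)] at this
  obtain ⟨t, htH, ht⟩ := h.exists_sgn (Ne.symm hsr)
  set y := g * t * g⁻¹ with hy
  have hyH : y ∈ H := mul_mem (mul_mem hg htH) (inv_mem hg)
  have hyy : y * y = 1 := by
    calc y * y = g * (t * t) * g⁻¹ := by rw [hy]; group
      _ = 1 := by rw [ht.mul_self, mul_one, mul_inv_cancel]
  rcases OTensor90.dihedral_cases hzz hyy with ⟨n, hn⟩ | ⟨c, ⟨m, hm⟩, hcc, hc1, hcz, hcy, hcase⟩
  · set k := (z * y) ^ n with hk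
    have hkH : k ∈ H := pow_mem (mul_mem hzH hyH) n
    have hze : (k⁻¹ * g) * t * (k⁻¹ * g)⁻¹ = z := by
      calc (k⁻¹ * g) * t * (k⁻¹ * g)⁻¹ = k⁻¹ * (y * k) := by rw [hy]; group
        _ = z := by rw [← hn, inv_mul_cancel_left]
    have hMk := h.mono_of_conj_mono ht (Ne.symm hsr) htH (mul_mem (inv_mem hkH) hg) (hze ▸ hzM)
    obtain ⟨π, d, hd2, hd⟩ := mono_signed (h.mem_iso (mul_mem (inv_mem hkH) hg)) hMk
    have := ht.conj π d hd fun l h0 => by simpa [h0] using hd2 l
    rw [hze] at this
    exact hndiag _ (this a)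
  · have hcH : c ∈ H := hm ▸ pow_mem (mul_mem hzH hyH) m
    have hzn : z ≠ -1 := fun h' => hndiag (-1) (by rw [h', Units.val_neg, Units.val_one, Matrix.neg_mulVec,
      Matrix.one_mulVec, neg_one_smul])
    have hz1 : z ≠ 1 := fun h' => hndiag 1 (by rw [h', Units.val_one, Matrix.one_mulVec, one_smul])
    by_cases hcn : c = -1
    · subst hcn
      have htrz : (z : Matrix ι ι F).trace = 2 := by
        rw [trace_eq_sum_co 𝔉, ← Finset.eq_univ_of_card _ (hcard.trans h.card_six.symm),
          Finset.sum_insert (by simp [Ne.symm hb, (Ne.symm hpa), (Ne.symm hqa), (Ne.symm hra), (Ne.symm hsa)]),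
          Finset.sum_insert (by simp [(Ne.symm hpb), (Ne.symm hqb), (Ne.symm hrb), (Ne.symm hsb)]),
          Finset.sum_insert (by simp [(Ne.symm hqp), (Ne.symm hrp), (Ne.symm hsp)]),
          Finset.sum_insert (by simp [(Ne.symm hrq), (Ne.symm hsq)]), Finset.sum_pair (Ne.symm hsr)]
        simp [hzk, Equiv.swap_apply_def, co_basis_ne (h := hb), co_basis_ne (h := Ne.symm hb),
          co_basis_ne (h := hqp), co_basis_ne (h := (Ne.symm hqp)), hra, hrb, hrp, hrq, hsa, hsb, hsp, hsq, hpa, hpb,
          hqa, hqb, hb, hqp, Ne.symm hb, (Ne.symm hpa), (Ne.symm hqa), (Ne.symm hpb), (Ne.symm hqb)]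
        norm_num
      have htry : (y : Matrix ι ι F).trace = 2 := by
        rw [hy, Units.val_mul, Units.val_mul, Matrix.trace_units_conj, trace_eq_sum_co 𝔉,
          ← Finset.eq_univ_of_card _ (hcard.trans h.card_six.symm),
          Finset.sum_insert (by simp [Ne.symm hb, (Ne.symm hpa), (Ne.symm hqa), (Ne.symm hra), (Ne.symm hsa)]),
          Finset.sum_insert (by simp [(Ne.symm hpb), (Ne.symm hqb), (Ne.symm hrb), (Ne.symm hsb)]),
          Finset.sum_insert (by simp [(Ne.symm hqp), (Ne.symm hrp), (Ne.symm hsp)]),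
          Finset.sum_insert (by simp [(Ne.symm hrq), (Ne.symm hsq)]), Finset.sum_pair (Ne.symm hsr)]
        simp [ht a, ht b, ht p, ht q, ht r, ht s, (Ne.symm hra), (Ne.symm hrb), (Ne.symm hrp), (Ne.symm hrq), (Ne.symm hsa), (Ne.symm hsb),
          (Ne.symm hsp), (Ne.symm hsq)]
        norm_num
      have key : ∀ (x k : GL ι F), k * x = z * -1 * k → (x : Matrix ι ι F).trace = -(z : Matrix ι ι F).trace := by
        intro x k hxk
        have : -z = k * x * k⁻¹ := by rw [hxk, mul_inv_cancel_right, mul_neg, mul_one]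
        rw [← Matrix.trace_neg, ← Units.val_neg, this, Units.val_mul, Units.val_mul, Matrix.trace_units_conj]
      have h4 : ((2 : F) * 2) ≠ 0 := mul_ne_zero h2 h2
      rcases hcase with ⟨i, hi⟩ | ⟨i, hi⟩
      · have := key _ _ hi
        rw [htry, htrz] at this
        exact h4 (by linear_combination this)
      · have := key _ _ hi
        rw [htrz] at this
        exact h4 (by linear_combination this)
    · have hcM : 𝔉.Mono Finset.univ c := h.mono_of_commute_involution hzH hzM hzz hz1 hzn hcH hcz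
      exact hnm (h.mono_of_conj_mono ht (Ne.symm hsr) htH hg
        (h.mono_of_commute_involution hcH hcM hcc hc1 hcn hyH hcy.symm))

end Six

omit [DecidableEq ι] [DecidableEq κ] [Fintype κ] [Fintype ι] in
/-- Over three elements twice a square is never one. -/
theorem three_ne_of_two_sq (hp : (Fintype.card F).Prime) (x : F) (hx : 2 * x * x = 1) : (3 : F) ≠ 0 := by
  intro h3
  have hq := OrthMono17.Frame.card_eq_three_of hp h3
  have hx0 : x ≠ 0 := fun h => by rw [h] at hx; simp at hx
  have h1 := FiniteField.pow_card_sub_one_eq_one x hx0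
  rw [hq] at h1
  norm_num at h1
  rcases h1 with rfl | rfl <;> exact one_ne_zero (α := F) (by linear_combination hx)

/-- A non-monomial group with the even sign changes and three-cycles of six frame vectors is everything. -/
theorem omegaGL_le_of_not_mono (hp : (Fintype.card F).Prime) (hκ : Fintype.card κ = 6)
    (hι : 5 ≤ Fintype.card ι) (hH : H ≤ omegaGL Q) (hD : 𝔉.Data H Finset.univ)
    (hn : ¬ ∀ g ∈ H, 𝔉.Mono Finset.univ g) : omegaGL Q ≤ H := by
  by_contra hle
  refine hn fun g hg => Six.mono_of_six ⟨hκ, three_ne_of_two_sq hp, hD,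
    fun x hx => OddInvolutions.det_of_mem_omegaGL (hH hx), fun x hx => ?_⟩ hg
  rintro ⟨k, hk⟩
  by_contra hx'
  exact hle (omegaGL_le_of_point_all hp hκ hι hD hx hk hx')

end CfsgLib.FrameSix90
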