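import Cfsg.Agent.FrameSix90.Moves

/-!
Six frame vectors: a conjugate of a sign change which is monomial comes from a monomial member.
-/

set_option autoImplicit false
set_option linter.unusedSectionVars false

namespace CfsgLib.FrameSix90

open Cfsg.Geo Module CfsgLib.OrthGeo CfsgLib.OrthMono17 CfsgLib.OrthMono17.Frame
open scoped Matrix MatrixGroups

variable {ι : Type} [Fintype ι] [DecidableEq ι] {F : Type*} [Field F] [Fintype F]
variable {Q : (ι → F) → F} {κ : Type} [Fintype κ] [DecidableEq κ] {𝔉 : Frame Q κ}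
variable {H : Subgroup (GL ι F)}

/-- Two orthogonal anisotropic vectors span the minus space of a conjugate of a sign change. -/
lemma neg_space (𝔉 : Frame Q κ) {t g : GL ι F} {e f : κ} (ht : IsSgn 𝔉 t e f) (hef : e ≠ f)
    (hgI : g ∈ Cfsg.isometryGroup F Q) {u₁ u₂ x : ι → F}
    (hu₁ : ((g * t * g⁻¹ : GL ι F) : Matrix ι ι F) *ᵥ u₁ = -u₁)
    (hu₂ : ((g * t * g⁻¹ : GL ι F) : Matrix ι ι F) *ᵥ u₂ = -u₂)
    (h₁₂ : 𝔉.dot u₁ u₂ = 0) (h₁ : 𝔉.dot u₁ u₁ ≠ 0) (h₂ : 𝔉.dot u₂ u₂ ≠ 0)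
    (hx : ((g * t * g⁻¹ : GL ι F) : Matrix ι ι F) *ᵥ x = -x) :
    x = (𝔉.dot x u₁ / 𝔉.dot u₁ u₁) • u₁ + (𝔉.dot x u₂ / 𝔉.dot u₂ u₂) • u₂ := by
  set x' := x - ((𝔉.dot x u₁ / 𝔉.dot u₁ u₁) • u₁ + (𝔉.dot x u₂ / 𝔉.dot u₂ u₂) • u₂) with hx'
  have h₂₁ : 𝔉.dot u₂ u₁ = 0 := by rw [dot_comm]; exact h₁₂
  have e1 : 𝔉.dot x' u₁ = 0 := by
    simp only [hx', dot_sub_left, dot_add_left, dot_smul_left, h₂₁, mul_zero, add_zero, div_mul_cancel₀ _ h₁, sub_self]
  have e2 : 𝔉.dot x' u₂ = 0 := by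
    simp only [hx', dot_sub_left, dot_add_left, dot_smul_left, h₁₂, mul_zero, zero_add, div_mul_cancel₀ _ h₂, sub_self]
  have hxn : ((g * t * g⁻¹ : GL ι F) : Matrix ι ι F) *ᵥ x' = -x' := by
    rw [hx', Matrix.mulVec_sub, Matrix.mulVec_add, Matrix.mulVec_smul, Matrix.mulVec_smul, hu₁, hu₂, hx]
    module
  have hpull : ∀ u, ((g * t * g⁻¹ : GL ι F) : Matrix ι ι F) *ᵥ u = -u →
      𝔉.InS {e, f} (((g⁻¹ : GL ι F) : Matrix ι ι F) *ᵥ u) := fun u hu => ht.inS_of_neg (by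
    have h' := congrArg (fun v => ((g⁻¹ : GL ι F) : Matrix ι ι F) *ᵥ v) hu
    simp only [mul_mulVec, inv_mulVec_cancel, Matrix.mulVec_neg] at h'
    exact h')
  have hy := hpull _ hxn
  have hy1 := hpull _ hu₁
  have hy2 := hpull _ hu₂
  have hd : ∀ u v, 𝔉.InS {e, f} (((g⁻¹ : GL ι F) : Matrix ι ι F) *ᵥ u) →
      𝔉.dot u v = 𝔉.co (((g⁻¹ : GL ι F) : Matrix ι ι F) *ᵥ u) e * 𝔉.co (((g⁻¹ : GL ι F) : Matrix ι ι F) *ᵥ v) e +
        𝔉.co (((g⁻¹ : GL ι F) : Matrix ι ι F) *ᵥ u) f * 𝔉.co (((g⁻¹ : GL ι F) : Matrix ι ι F) *ᵥ v) f := by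
    intro u v hu
    rw [← 𝔉.dot_isometry (inv_mem hgI), hu.dot_eq, Finset.sum_pair hef]
  set p := 𝔉.co (((g⁻¹ : GL ι F) : Matrix ι ι F) *ᵥ x') e
  set q := 𝔉.co (((g⁻¹ : GL ι F) : Matrix ι ι F) *ᵥ x') f
  set a := 𝔉.co (((g⁻¹ : GL ι F) : Matrix ι ι F) *ᵥ u₁) e
  set b := 𝔉.co (((g⁻¹ : GL ι F) : Matrix ι ι F) *ᵥ u₁) f
  set c := 𝔉.co (((g⁻¹ : GL ι F) : Matrix ι ι F) *ᵥ u₂) e
  set d := 𝔉.co (((g⁻¹ : GL ι F) : Matrix ι ι F) *ᵥ u₂) f
  rw [hd _ _ hy] at e1 e2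
  rw [hd _ _ hy1] at h₁₂ h₁
  rw [hd _ _ hy2] at h₂
  have hdet : a * d - b * c ≠ 0 := by
    intro h0
    refine mul_ne_zero h₁ h₂ ?_
    linear_combination (a * d - b * c) * h0 + (a * c + b * d) * h₁₂
  have hp : p = 0 := (mul_eq_zero.1 (show p * (a * d - b * c) = 0 by linear_combination d * e1 - b * e2)).resolve_right hdet
  have hq : q = 0 := (mul_eq_zero.1 (show q * (a * d - b * c) = 0 by linear_combination a * e2 - c * e1)).resolve_right hdet
  have h0 : ((g⁻¹ : GL ι F) : Matrix ι ι F) *ᵥ x' = 0 := hy.ext 𝔉.inS_zero fun k hk => by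
    simp only [Finset.mem_insert, Finset.mem_singleton] at hk
    rcases hk with rfl | rfl
    · rw [co_zero]; exact hp
    · rw [co_zero]; exact hq
  have hx0 : x' = 0 := by rw [← mulVec_inv_cancel g x', h0, Matrix.mulVec_zero]
  exact sub_eq_zero.1 (hx'.symm.trans hx0)

namespace Six

variable (h : Six 𝔉 H)
include h

/-- The conjugate lies in a diagonal matrix only if it is a sign change. -/
lemma mono_of_conj_diag {t g : GL ι F} {e f : κ} (ht : IsSgn 𝔉 t e f) (hef : e ≠ f) (hg : g ∈ H)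
    {c : κ → F} (hc2 : ∀ k, c k * c k = 1)
    (hz : ∀ k, ((g * t * g⁻¹ : GL ι F) : Matrix ι ι F) *ᵥ 𝔉.basis k = c k • 𝔉.basis k) :
    𝔉.Mono Finset.univ g := by
  classical
  have hgI := h.mem_iso hg
  have hneg : ∀ i, i = e ∨ i = f → ((g * t * g⁻¹ : GL ι F) : Matrix ι ι F) *ᵥ ((g : Matrix ι ι F) *ᵥ 𝔉.basis i) =
      -((g : Matrix ι ι F) *ᵥ 𝔉.basis i) := fun i hi => by
    rw [mul_mulVec, mul_mulVec, inv_mulVec_cancel, ht i, if_pos hi, neg_one_smul, Matrix.mulVec_neg]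
  have hco : ∀ x, ((g * t * g⁻¹ : GL ι F) : Matrix ι ι F) *ᵥ x = -x → ∀ k, c k ≠ -1 → 𝔉.co x k = 0 := by
    intro x hx k hk
    have h1 := congrArg (fun v => 𝔉.co v k) hx
    simp only [co_neg] at h1
    have h3 := co_mulVec_mono (𝔉.inS_univ x) (σ := id) (fun l _ => hz l) Function.injective_id.injOn (Finset.mem_univ k)
    simp only [id] at h3
    rw [h3] at h1
    have : (c k + 1) * 𝔉.co x k = 0 := by linear_combination h1
    exact (mul_eq_zero.1 this).resolve_left fun h0 => hk (eq_neg_of_add_eq_zero_left h0)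
  have hline : ∀ i, i = e ∨ i = f → ∀ a, (∀ k, k ≠ a → c k ≠ -1) →
      ∃ s : F, (g : Matrix ι ι F) *ᵥ 𝔉.basis i = s • 𝔉.basis a := fun i hi a ha =>
    ⟨𝔉.co ((g : Matrix ι ι F) *ᵥ 𝔉.basis i) a, 𝔉.ext_co fun k => by
      by_cases hk : k = a
      · subst hk; simp
      · rw [co_smul, co_basis_ne (h := Ne.symm hk), mul_zero, hco _ (hneg i hi) k (ha k hk)]⟩
  by_cases h1 : ∃ a b : κ, a ≠ b ∧ c a = -1 ∧ c b = -1
  swap
  · push Not at h1
    obtain ⟨a, ha⟩ : ∃ a, ∀ k, k ≠ a → c k ≠ -1 := by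
      by_cases h0 : ∃ a, c a = -1
      · obtain ⟨a, ha⟩ := h0
        exact ⟨a, fun k hk hk' => h1 k a hk hk' ha⟩
      · push Not at h0
        exact ⟨e, fun k _ => h0 k⟩
    obtain ⟨s, hs⟩ := hline e (Or.inl rfl) a ha
    exact h.mono_of_basis hg hs
  obtain ⟨a, b, hab, hca, hcb⟩ := h1
  have hzn : ∀ k, c k = -1 → ((g * t * g⁻¹ : GL ι F) : Matrix ι ι F) *ᵥ 𝔉.basis k = -𝔉.basis k := fun k hk => by
    rw [hz k, hk, neg_one_smul]
  have hout : ∀ k, k ≠ a → k ≠ b → c k ≠ -1 := by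
    intro k hka hkb hk
    have h' := neg_space 𝔉 ht hef hgI (hzn a hca) (hzn b hcb) (by simp [co_basis_ne (h := hab), co_basis_ne (h := hab.symm)])
      (by simp) (by simp) (hzn k hk)
    have := congrArg (fun v => 𝔉.co v k) h'
    simp [co_basis_ne (h := Ne.symm hka), co_basis_ne (h := Ne.symm hkb), co_basis_ne (h := hka),
      co_basis_ne (h := hkb)] at this
  refine h.mono_of_conj_sgn ht hef (z := g * t * g⁻¹) (a := a) (b := b) ?_ hab hg rfl
  intro k
  rw [hz k]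
  by_cases hk : k = a ∨ k = b
  · rw [if_pos hk]; rcases hk with rfl | rfl <;> simp [hca, hcb]
  · rw [if_neg hk]
    push Not at hk
    rw [(mul_self_eq_one_iff.1 (hc2 k)).resolve_right (hout k hk.1 hk.2)]

/-- One transposition and one negated frame vector. -/
lemma false_of_single {t g : GL ι F} {e f a b k₀ : κ} {σ : Equiv.Perm κ} {c : κ → F}
    (ht : IsSgn 𝔉 t e f) (hef : e ≠ f) (hg : g ∈ H) (hc2 : ∀ k, c k * c k = 1)
    (hz : ∀ k, ((g * t * g⁻¹ : GL ι F) : Matrix ι ι F) *ᵥ 𝔉.basis k = c k • 𝔉.basis (σ k))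
    (hab : a ≠ b) (hσa : σ a = b) (hσb : σ b = a) (hcc : c a * c b = 1) (hk₀ : σ k₀ = k₀) (hck₀ : c k₀ = -1) :
    𝔉.Mono Finset.univ g := by
  classical
  by_contra hnm
  have h2 := 𝔉.two_ne
  have hgI := h.mem_iso hg
  have hca0 : c a ≠ 0 := fun h0 => by simpa [h0] using hc2 a
  have hka : k₀ ≠ a := fun h' => hab (by rw [← hσa, ← h', hk₀, h'])
  have hkb : k₀ ≠ b := fun h' => hab (by rw [← hσb, ← h', hk₀, h'])
  set u₁ := 𝔉.basis a - c a • 𝔉.basis b with hu₁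
  have hzu₁ : ((g * t * g⁻¹ : GL ι F) : Matrix ι ι F) *ᵥ u₁ = -u₁ := by
    rw [hu₁, Matrix.mulVec_sub, Matrix.mulVec_smul, hz, hz, hσa, hσb, smul_smul, hcc, one_smul]
    module
  have hzk₀ : ((g * t * g⁻¹ : GL ι F) : Matrix ι ι F) *ᵥ 𝔉.basis k₀ = -𝔉.basis k₀ := by
    rw [hz, hk₀, hck₀, neg_one_smul]
  have h11 : 𝔉.dot u₁ u₁ = 2 := by
    simp [hu₁, co_basis_ne (h := hab), co_basis_ne (h := hab.symm)]
    linear_combination hc2 a
  have hspan : ∀ x, ((g * t * g⁻¹ : GL ι F) : Matrix ι ι F) *ᵥ x = -x →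
      ∃ α β : F, x = α • u₁ + β • 𝔉.basis k₀ := fun x hx =>
    ⟨_, _, neg_space 𝔉 ht hef hgI hzu₁ hzk₀ (by simp [hu₁, co_basis_ne (h := hka.symm), co_basis_ne (h := hkb.symm)])
      (by rw [h11]; exact h2) (by simp) hx⟩
  have hneg : ∀ i, i = e ∨ i = f → ((g * t * g⁻¹ : GL ι F) : Matrix ι ι F) *ᵥ ((g : Matrix ι ι F) *ᵥ 𝔉.basis i) =
      -((g : Matrix ι ι F) *ᵥ 𝔉.basis i) := fun i hi => by
    rw [mul_mulVec, mul_mulVec, inv_mulVec_cancel, ht i, if_pos hi, neg_one_smul, Matrix.mulVec_neg]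
  obtain ⟨α, β, hv⟩ := hspan _ (hneg e (Or.inl rfl))
  obtain ⟨α', β', hw⟩ := hspan _ (hneg f (Or.inr rfl))
  have hdot : ∀ α β γ δ : F, 𝔉.dot (α • u₁ + β • 𝔉.basis k₀) (γ • u₁ + δ • 𝔉.basis k₀) = 2 * α * γ + β * δ := by
    intro α β γ δ
    simp [hu₁, co_basis_ne (h := hab), co_basis_ne (h := hab.symm), co_basis_ne (h := hka.symm),
      co_basis_ne (h := hkb.symm), co_basis_ne (h := hka), co_basis_ne (h := hkb)]
    linear_combination (α * γ) * hc2 a
  have hvv : 2 * α * α + β * β = 1 := by rw [← hdot, ← hv, 𝔉.dot_isometry hgI]; simp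
  have hvw : 2 * α * α' + β * β' = 0 := by
    rw [← hdot, ← hv, ← hw, 𝔉.dot_isometry hgI]; simp [co_basis_ne (h := hef), co_basis_ne (h := hef.symm)]
  have hα : α ≠ 0 := fun h0 => hnm (h.mono_of_basis hg (s := β) (by rw [hv, h0, zero_smul, zero_add]))
  have hβ : β ≠ 0 := by
    intro h0
    rw [h0] at hvw
    have hα' : α' = 0 := (mul_eq_zero.1 (show (2 * α) * α' = 0 by linear_combination hvw)).resolve_left (mul_ne_zero h2 hα)
    exact hnm (h.mono_of_basis hg (s := β') (by rw [hw, hα', zero_smul, zero_add]))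
  -- the sign change on the moved pair
  obtain ⟨u, huH, hu⟩ := h.exists_sgn hab
  have hσ2 : ∀ k, σ (σ k) = k := by
    intro k
    have hzz : (g * t * g⁻¹) * (g * t * g⁻¹) = 1 := by
      calc (g * t * g⁻¹) * (g * t * g⁻¹) = g * (t * t) * g⁻¹ := by group
        _ = 1 := by rw [ht.mul_self, mul_one, mul_inv_cancel]
    by_contra hne
    have h1 := congrArg (fun x : GL ι F => 𝔉.co ((x : Matrix ι ι F) *ᵥ 𝔉.basis k) k) hzz
    rw [mul_mulVec, hz, Matrix.mulVec_smul, hz, smul_smul, co_smul, co_basis_ne (h := hne), mul_zero,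
      Units.val_one, Matrix.one_mulVec, co_basis_self] at h1
    exact zero_ne_one h1
  have huz : (g * t * g⁻¹) * u = u * (g * t * g⁻¹) := commute_sgn_of_perm hu σ c hz fun k => by
    constructor
    · rintro (hk | hk)
      · right; rw [← hσ2 k, hk, hσa]
      · left; rw [← hσ2 k, hk, hσb]
    · rintro (rfl | rfl)
      exacts [Or.inr hσa, Or.inl hσb]
  set m₀ := g⁻¹ * u * g with hm₀
  have hm₀H : m₀ ∈ H := mul_mem (mul_mem (inv_mem hg) huH) hg
  have hm₀t : m₀ * t = t * m₀ := by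
    calc m₀ * t = g⁻¹ * (u * (g * t * g⁻¹)) * g := by rw [hm₀]; group
      _ = g⁻¹ * ((g * t * g⁻¹) * u) * g := by rw [huz]
      _ = t * m₀ := by rw [hm₀]; group
  obtain ⟨τ, d, hd2, hd⟩ := mono_signed (h.mem_iso hm₀H) (h.mono_of_commute_sgn ht hef hm₀H hm₀t)
  have hum : ∀ i, (u : Matrix ι ι F) *ᵥ ((g : Matrix ι ι F) *ᵥ 𝔉.basis i) =
      d i • (g : Matrix ι ι F) *ᵥ 𝔉.basis (τ i) := fun i => by
    have := congrArg (fun v => (g : Matrix ι ι F) *ᵥ v) (hd i)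
    simp only [hm₀, mul_mulVec, mulVec_inv_cancel, Matrix.mulVec_smul] at this
    exact this
  have hu₁u : (u : Matrix ι ι F) *ᵥ u₁ = -u₁ :=
    hu.mulVec_inS ((𝔉.inS_basis (by simp)).sub ((𝔉.inS_basis (by simp)).smul _))
  have huk₀ : (u : Matrix ι ι F) *ᵥ 𝔉.basis k₀ = 𝔉.basis k₀ := by
    rw [hu k₀, if_neg (not_or.2 ⟨hka, hkb⟩), one_smul]
  have hD : 2 * α * α * (-1) + β * β = 0 := by
    have e1 : 𝔉.dot ((g : Matrix ι ι F) *ᵥ 𝔉.basis e) ((u : Matrix ι ι F) *ᵥ ((g : Matrix ι ι F) *ᵥ 𝔉.basis e)) =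
        2 * α * (-α) + β * β := by
      rw [hv, Matrix.mulVec_add, Matrix.mulVec_smul, Matrix.mulVec_smul, hu₁u, huk₀, smul_neg, ← neg_smul, hdot]
    rw [hum, dot_smul_right, 𝔉.dot_isometry hgI, dot_basis_left] at e1
    by_cases hτ : τ e = e
    · rw [hτ, co_basis_self, mul_one] at e1
      rcases mul_self_eq_one_iff.1 (hd2 e) with h' | h'
      · exfalso
        exact mul_ne_zero (mul_ne_zero h2 hα) (mul_ne_zero h2 hα) (by linear_combination hvv + (h'.symm.trans e1))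
      · exfalso
        exact mul_ne_zero (mul_ne_zero h2 hβ) hβ (by linear_combination hvv - (h'.symm.trans e1))
    · rw [co_basis_ne (h := hτ), mul_zero] at e1
      linear_combination -e1
  -- an image of a frame vector outside the plane, meeting the pair
  obtain ⟨j, hje, hjf, hja⟩ : ∃ j, j ≠ e ∧ j ≠ f ∧ 𝔉.co ((g : Matrix ι ι F) *ᵥ 𝔉.basis j) a ≠ 0 := by
    by_contra hno
    push Not at hno
    have hS : 𝔉.InS {e, f} (((g⁻¹ : GL ι F) : Matrix ι ι F) *ᵥ 𝔉.basis a) := fun k hk => by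
      simp only [Finset.mem_insert, Finset.mem_singleton, not_or] at hk
      rw [← dot_basis_right, ← 𝔉.dot_isometry hgI, mulVec_inv_cancel, dot_basis_left]
      exact hno k hk.1 hk.2
    have h1 : ((g * t * g⁻¹ : GL ι F) : Matrix ι ι F) *ᵥ 𝔉.basis a = -𝔉.basis a := by
      rw [mul_mulVec, mul_mulVec, ht.mulVec_inS hS, Matrix.mulVec_neg, mulVec_inv_cancel]
    rw [hz, hσa] at h1
    have := congrArg (fun v => 𝔉.co v a) h1
    simp [co_basis_ne (h := hab.symm)] at this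
  set v' := (g : Matrix ι ι F) *ᵥ 𝔉.basis j with hv'
  have hzv' : ((g * t * g⁻¹ : GL ι F) : Matrix ι ι F) *ᵥ v' = v' := by
    rw [mul_mulVec, mul_mulVec, hv', inv_mulVec_cancel, ht j, if_neg (not_or.2 ⟨hje, hjf⟩), one_smul]
  -- it is an eigenvector of the sign change
  have heig : ∀ x y : κ, x ≠ y → x ≠ e → x ≠ f → y ≠ e → y ≠ f → ∀ r ∈ H, IsSgn 𝔉 r x y → m₀ * r = r * m₀ := by
    intro x y hxy hxe hxf hye hyf r hr hrs
    set m := g * r * g⁻¹ with hm
    have hmH : m ∈ H := mul_mem (mul_mem hg hr) (inv_mem hg)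
    have hmP : ∀ w, ((g * t * g⁻¹ : GL ι F) : Matrix ι ι F) *ᵥ w = -w → (m : Matrix ι ι F) *ᵥ w = w := by
      intro w hw'
      have hS : 𝔉.InS {e, f} (((g⁻¹ : GL ι F) : Matrix ι ι F) *ᵥ w) := ht.inS_of_neg (by
        have h' := congrArg (fun v => ((g⁻¹ : GL ι F) : Matrix ι ι F) *ᵥ v) hw'
        simp only [mul_mulVec, inv_mulVec_cancel, Matrix.mulVec_neg] at h'
        exact h')
      rw [hm, mul_mulVec, mul_mulVec]
      conv_rhs => rw [← mulVec_inv_cancel g w]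
      congr 1
      refine (hS.mulVec_congr (B := 1) fun l hl => ?_).trans (Matrix.one_mulVec _)
      rw [hrs l, if_neg, one_smul, Matrix.one_mulVec]
      simp only [Finset.mem_insert, Finset.mem_singleton] at hl
      rcases hl with rfl | rfl
      · exact not_or.2 ⟨hxe.symm, hye.symm⟩
      · exact not_or.2 ⟨hxf.symm, hyf.symm⟩
    obtain ⟨ρ, p, hp2, hp⟩ := mono_signed (h.mem_iso hmH) (h.point m hmH ⟨k₀, 1, by rw [one_smul]; exact hmP _ hzk₀⟩)
    have hmu : (m : Matrix ι ι F) *ᵥ u₁ = u₁ := hmP _ hzu₁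
    have hρab : ∀ l, l = a ∨ l = b → ρ l = a ∨ ρ l = b := by
      intro l hl
      by_contra hno
      push Not at hno
      have := congrArg (fun w => 𝔉.co w (ρ l)) hmu
      simp only [hu₁, Matrix.mulVec_sub, Matrix.mulVec_smul, hp, smul_smul, co_sub, co_smul,
        co_basis_ne (h := Ne.symm hno.1), co_basis_ne (h := Ne.symm hno.2), mul_zero, sub_zero] at this
      rcases hl with rfl | rfl
      · rw [co_basis_self, co_basis_ne (h := fun e' => hab (ρ.injective e').symm), mul_one, mul_zero, sub_zero] at this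
        simpa [this] using hp2 l
      · rw [co_basis_self, co_basis_ne (h := fun e' => hab (ρ.injective e')), mul_one, mul_zero, zero_sub,
          neg_eq_zero] at this
        rcases mul_eq_zero.1 this with h' | h'
        · exact hca0 h'
        · simpa [h'] using hp2 l
    have hmu' : m * u = u * m := commute_sgn_of_perm hu ρ p hp fun k => by
      refine ⟨fun hk => ?_, hρab k⟩
      by_contra hno
      push Not at hno
      rcases hρab a (Or.inl rfl) with ha' | ha' <;> rcases hρab b (Or.inr rfl) with hb' | hb'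
      · exact hab (ρ.injective (ha'.trans hb'.symm))
      · rcases hk with hk | hk
        exacts [hno.1 (ρ.injective (hk.trans ha'.symm)), hno.2 (ρ.injective (hk.trans hb'.symm))]
      · rcases hk with hk | hk
        exacts [hno.2 (ρ.injective (hk.trans hb'.symm)), hno.1 (ρ.injective (hk.trans ha'.symm))]
      · exact hab (ρ.injective (ha'.trans hb'.symm))
    calc m₀ * r = g⁻¹ * (u * m) * g := by rw [hm₀, hm]; group
      _ = g⁻¹ * (m * u) * g := by rw [hmu']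
      _ = r * m₀ := by rw [hm₀, hm]; group
  have hτj : τ j = j := by
    by_contra hne
    have hne' : τ j ∈ ({e, f} : Finset κ) ∨ (τ j ≠ e ∧ τ j ≠ f) := by
      simp only [Finset.mem_insert, Finset.mem_singleton]; tauto
    obtain ⟨x, hx⟩ := h.exists_ne {e, f, j, τ j} ((Finset.card_le_four).trans (by norm_num))
    simp only [Finset.mem_insert, Finset.mem_singleton, not_or] at hx
    obtain ⟨r, hr, hrs⟩ := h.exists_sgn (Ne.symm hx.2.2.1)
    have h1 := congrArg (fun y : GL ι F => 𝔉.co ((y : Matrix ι ι F) *ᵥ 𝔉.basis j) (τ j))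
      (heig j x (Ne.symm hx.2.2.1) hje hjf hx.1 hx.2.1 r hr hrs)
    simp only [mul_mulVec, hrs j, true_or, if_true, Matrix.mulVec_smul, hd, hrs (τ j),
      if_neg (not_or.2 ⟨hne, Ne.symm hx.2.2.2⟩), one_smul, co_smul, co_basis_self, mul_one] at h1
    have : (2 : F) * d j = 0 := by linear_combination -h1
    rcases mul_eq_zero.1 this with h' | h'
    · exact h2 h'
    · simpa [h'] using hd2 j
  have huv' : (u : Matrix ι ι F) *ᵥ v' = -v' := by
    have h1 := hum j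
    rw [hτj] at h1
    rcases mul_self_eq_one_iff.1 (hd2 j) with h' | h'
    · rw [h', one_smul] at h1
      have := congrArg (fun v => 𝔉.co v a) h1
      simp only [hu.co_mulVec, true_or, if_true, neg_mul, one_mul] at this
      exact absurd ((mul_eq_zero.1 (show (2 : F) * 𝔉.co v' a = 0 by linear_combination -this)).resolve_left h2) hja
    · rw [h', neg_one_smul] at h1; exact h1
  have hv'S := hu.inS_of_neg huv'
  -- move the negated frame vector away
  obtain ⟨d₁, hd₁⟩ := h.exists_ne {a, b, k₀} ((Finset.card_le_three).trans (by norm_num))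
  simp only [Finset.mem_insert, Finset.mem_singleton, not_or] at hd₁
  obtain ⟨d₂, hd₂⟩ := h.exists_ne {a, b, k₀, d₁} ((Finset.card_le_four).trans (by norm_num))
  simp only [Finset.mem_insert, Finset.mem_singleton, not_or] at hd₂
  obtain ⟨π, hπ, hπk⟩ := h.exists_perm_cyc (Ne.symm hd₁.2.2) (Ne.symm hd₂.2.2.2) (Ne.symm hd₂.2.2.1)
  have hπa : ∀ l, l = a ∨ l = b → (π : Matrix ι ι F) *ᵥ 𝔉.basis l = 𝔉.basis l := by
    intro l hl
    rw [hπk]
    rcases hl with rfl | rfl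
    · rw [Equiv.Perm.mul_apply, Equiv.swap_apply_of_ne_of_ne (Ne.symm hd₁.1) (Ne.symm hd₂.1),
        Equiv.swap_apply_of_ne_of_ne hka.symm (Ne.symm hd₁.1)]
    · rw [Equiv.Perm.mul_apply, Equiv.swap_apply_of_ne_of_ne (Ne.symm hd₁.2.1) (Ne.symm hd₂.2.1),
        Equiv.swap_apply_of_ne_of_ne hkb.symm (Ne.symm hd₁.2.1)]
  have hπfix : (π : Matrix ι ι F) *ᵥ v' = v' :=
    (hv'S.mulVec_congr (B := 1) fun l hl => by
      rw [hπa l (by simpa using hl), Matrix.one_mulVec]).trans (Matrix.one_mulVec _)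
  have hπk₀ : (π : Matrix ι ι F) *ᵥ 𝔉.basis k₀ = 𝔉.basis d₁ := by
    rw [hπk, Equiv.Perm.mul_apply, Equiv.swap_apply_of_ne_of_ne (Ne.symm hd₁.2.2) (Ne.symm hd₂.2.2.1),
      Equiv.swap_apply_left]
  have hfin := h.image_dot hg hπ (i := j) hπfix e
  have e2 : 𝔉.dot ((g : Matrix ι ι F) *ᵥ 𝔉.basis e) ((π : Matrix ι ι F) *ᵥ ((g : Matrix ι ι F) *ᵥ 𝔉.basis e)) =
      2 * α * α := by
    rw [hv, Matrix.mulVec_add, Matrix.mulVec_smul, Matrix.mulVec_smul, hπk₀, hu₁, Matrix.mulVec_sub,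
      Matrix.mulVec_smul, hπa a (Or.inl rfl), hπa b (Or.inr rfl)]
    simp [co_basis_ne (h := hab), co_basis_ne (h := hab.symm), co_basis_ne (h := hka), co_basis_ne (h := hkb),
      co_basis_ne (h := hd₁.1), co_basis_ne (h := hd₁.2.1), co_basis_ne (h := Ne.symm hka),
      co_basis_ne (h := Ne.symm hkb), co_basis_ne (h := Ne.symm hd₁.1), co_basis_ne (h := Ne.symm hd₁.2.1),
      co_basis_ne (h := Ne.symm hd₁.2.2), co_basis_ne (h := hd₁.2.2)]
    linear_combination (α * α) * hc2 a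
  rw [e2] at hfin
  have hαα : (4 : F) * α * α = 1 := by linear_combination hvv - hD
  rcases hfin with h' | h' | h'
  · exact one_ne_zero (α := F) (by linear_combination 2 * h' - hαα)
  · exact one_ne_zero (α := F) (by linear_combination hαα - 2 * h')
  · exact h.three_ne β (by linear_combination 2 * hD + hαα) (by linear_combination 2 * h' - hαα)

end Six

end CfsgLib.FrameSix90
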