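import Cfsg.Agent.FrameSix90.Sign

/-!
Six frame vectors: moving pairs of frame vectors, and consequences of a monomial line stabiliser.
-/

set_option autoImplicit false
set_option linter.unusedSectionVars false

namespace CfsgLib.FrameSix90

open Cfsg.Geo Module CfsgLib.OrthGeo CfsgLib.OrthMono17 CfsgLib.OrthMono17.Frame
open scoped Matrix MatrixGroups

variable {ι : Type} [Fintype ι] [DecidableEq ι] {F : Type*} [Field F] [Fintype F]
variable {Q : (ι → F) → F} {κ : Type} [Fintype κ] [DecidableEq κ] {𝔉 : Frame Q κ}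
variable {H : Subgroup (GL ι F)}

lemma IsSgn.symm {t : GL ι F} {a b : κ} (ht : IsSgn 𝔉 t a b) : IsSgn 𝔉 t b a := fun k => by
  rw [ht k]; simp [or_comm]

lemma IsSgn.mono {t : GL ι F} {a b : κ} (ht : IsSgn 𝔉 t a b) : 𝔉.Mono Finset.univ t :=
  fun i _ => ⟨i, Finset.mem_univ _, _, ht i⟩

lemma mulVec_inv_of_smul {g : GL ι F} {x : ι → F} {s : F} {y : ι → F}
    (h : (g : Matrix ι ι F) *ᵥ x = s • y) : x = s • ((g⁻¹ : GL ι F) : Matrix ι ι F) *ᵥ y := by
  have := congrArg (fun v => ((g⁻¹ : GL ι F) : Matrix ι ι F) *ᵥ v) h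
  simpa [inv_mulVec_cancel, Matrix.mulVec_smul] using this

/-- A signed permutation conjugates sign changes to sign changes. -/
lemma IsSgn.conj {t g : GL ι F} {a b : κ} (ht : IsSgn 𝔉 t a b) (σ : Equiv.Perm κ) (c : κ → F)
    (hc : ∀ k, (g : Matrix ι ι F) *ᵥ 𝔉.basis k = c k • 𝔉.basis (σ k)) (hc0 : ∀ k, c k ≠ 0) :
    IsSgn 𝔉 (g * t * g⁻¹) (σ a) (σ b) := by
  intro k
  obtain ⟨l, rfl⟩ := σ.surjective k
  have h1 : ((g⁻¹ : GL ι F) : Matrix ι ι F) *ᵥ 𝔉.basis (σ l) = (c l)⁻¹ • 𝔉.basis l := by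
    have := congrArg (fun v => (c l)⁻¹ • v) (mulVec_inv_of_smul (hc l))
    simp only [smul_smul, inv_mul_cancel₀ (hc0 l), one_smul] at this
    exact this.symm
  rw [mul_mulVec, mul_mulVec, h1, Matrix.mulVec_smul, ht l, Matrix.mulVec_smul, Matrix.mulVec_smul, hc,
    smul_smul, smul_smul]
  simp only [σ.injective.eq_iff]
  congr 1
  field_simp [hc0 l]

/-- Sign changes and a group member commute when the member stabilises the pair. -/
lemma commute_sgn_of_perm {t g : GL ι F} {a b : κ} (ht : IsSgn 𝔉 t a b) (σ : Equiv.Perm κ) (c : κ → F)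
    (hc : ∀ k, (g : Matrix ι ι F) *ᵥ 𝔉.basis k = c k • 𝔉.basis (σ k))
    (hab : ∀ k, (σ k = a ∨ σ k = b) ↔ (k = a ∨ k = b)) : g * t = t * g :=
  gl_ext_basis (𝔉 := 𝔉) fun k => by
    rw [mul_mulVec, mul_mulVec, ht k, hc, Matrix.mulVec_smul, Matrix.mulVec_smul, hc, ht, smul_smul, smul_smul,
      mul_comm]
    by_cases h : k = a ∨ k = b
    · rw [if_pos h, if_pos ((hab k).2 h)]
    · rw [if_neg h, if_neg (fun h' => h ((hab k).1 h'))]

namespace Six

variable (h : Six 𝔉 H)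
include h

/-- A frame vector outside a given list of at most five. -/
lemma exists_ne (S : Finset κ) (hS : S.card ≤ 5) : ∃ x, x ∉ S := by
  by_contra hx
  push Not at hx
  have : S = Finset.univ := Finset.eq_univ_of_forall hx
  rw [this, Finset.card_univ, h.card_six] at hS
  omega

lemma exists_perm_cyc {a b c : κ} (hab : a ≠ b) (hbc : b ≠ c) (hac : a ≠ c) : ∃ g ∈ H,
    ∀ k, (g : Matrix ι ι F) *ᵥ 𝔉.basis k = 𝔉.basis ((Equiv.swap a b * Equiv.swap b c) k) := by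
  obtain ⟨g, hg, hgk⟩ := h.exists_cyc hab hbc hac
  refine ⟨g, hg, fun k => ?_⟩
  rw [hgk]
  congr 1
  simp only [Equiv.Perm.mul_apply, Equiv.swap_apply_def]
  grind

/-- Any ordered pair of frame vectors can be moved to any other. -/
lemma exists_move {e f a b : κ} (hef : e ≠ f) (hab : a ≠ b) : ∃ g ∈ H, ∃ p : Equiv.Perm κ,
    p e = a ∧ p f = b ∧ ∀ k, (g : Matrix ι ι F) *ᵥ 𝔉.basis k = 𝔉.basis (p k) := by
  obtain ⟨g₁, hg₁, p₁, hp₁, hk₁⟩ : ∃ g ∈ H, ∃ p : Equiv.Perm κ, p e = a ∧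
      ∀ k, (g : Matrix ι ι F) *ᵥ 𝔉.basis k = 𝔉.basis (p k) := by
    by_cases hea : e = a
    · exact ⟨1, one_mem _, 1, hea, fun k => by simp⟩
    · obtain ⟨x, hx⟩ := h.exists_ne {e, a} ((Finset.card_le_two).trans (by norm_num))
      simp only [Finset.mem_insert, Finset.mem_singleton, not_or] at hx
      obtain ⟨g, hg, hgk⟩ := h.exists_perm_cyc hea (Ne.symm hx.2) (Ne.symm hx.1)
      refine ⟨g, hg, _, ?_, hgk⟩
      rw [Equiv.Perm.mul_apply, Equiv.swap_apply_of_ne_of_ne hea (Ne.symm hx.1), Equiv.swap_apply_left]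
  set f' := p₁ f with hf'
  have hf'a : f' ≠ a := fun h' => hef (p₁.injective (hp₁.trans h'.symm))
  by_cases hfb : f' = b
  · exact ⟨g₁, hg₁, p₁, hp₁, hfb, hk₁⟩
  obtain ⟨y, hy⟩ := h.exists_ne {a, f', b} ((Finset.card_le_three).trans (by norm_num))
  simp only [Finset.mem_insert, Finset.mem_singleton, not_or] at hy
  obtain ⟨g₂, hg₂, hk₂⟩ := h.exists_perm_cyc hfb (Ne.symm hy.2.2) (Ne.symm hy.2.1)
  refine ⟨g₂ * g₁, mul_mem hg₂ hg₁, (Equiv.swap f' b * Equiv.swap b y) * p₁, ?_, ?_, fun k => ?_⟩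
  · rw [Equiv.Perm.mul_apply, hp₁, Equiv.Perm.mul_apply, Equiv.swap_apply_of_ne_of_ne hab (Ne.symm hy.1),
      Equiv.swap_apply_of_ne_of_ne (Ne.symm hf'a) hab]
  · rw [Equiv.Perm.mul_apply, ← hf', Equiv.Perm.mul_apply, Equiv.swap_apply_of_ne_of_ne hfb (Ne.symm hy.2.1),
      Equiv.swap_apply_left]
  · rw [mul_mulVec, hk₁, hk₂]
    rfl

/-- Conjugating a sign change to a sign change only by monomial members. -/
lemma mono_of_conj_sgn {t z g : GL ι F} {e f a b : κ} (ht : IsSgn 𝔉 t e f) (hef : e ≠ f)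
    (hz : IsSgn 𝔉 z a b) (hab : a ≠ b) (hg : g ∈ H) (hgt : g * t * g⁻¹ = z) : 𝔉.Mono Finset.univ g := by
  obtain ⟨π, hπ, p, hpe, hpf, hπk⟩ := h.exists_move hef hab
  have hπ' : ∀ k, (π : Matrix ι ι F) *ᵥ 𝔉.basis k = (1 : F) • 𝔉.basis (p k) := fun k => by rw [hπk, one_smul]
  have h1 := ht.conj p (fun _ => (1 : F)) hπ' fun _ => one_ne_zero
  rw [hpe, hpf] at h1
  have h2 : π * t * π⁻¹ = g * t * g⁻¹ := (h1.eq hz).trans hgt.symm
  have hcom : π⁻¹ * g * t = t * (π⁻¹ * g) := by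
    have : π⁻¹ * g * t = π⁻¹ * (g * t * g⁻¹) * g := by group
    rw [this, ← h2]; group
  have hπM : 𝔉.Mono Finset.univ π := fun i _ => ⟨_, Finset.mem_univ _, _, hπ' i⟩
  have := hπM.mul (h.mono_of_commute_sgn ht hef (mul_mem (inv_mem hπ) hg) hcom)
  rwa [mul_inv_cancel_left] at this

/-- A member sending a frame vector into a frame line is monomial. -/
lemma mono_of_basis {g : GL ι F} (hg : g ∈ H) {i j : κ} {s : F}
    (hs : (g : Matrix ι ι F) *ᵥ 𝔉.basis i = s • 𝔉.basis j) : 𝔉.Mono Finset.univ g := by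
  obtain ⟨x, hx⟩ := h.exists_ne {i} (by simp)
  obtain ⟨y, hy⟩ := h.exists_ne {j} (by simp)
  rw [Finset.mem_singleton] at hx hy
  obtain ⟨π, hπ, p, hpj, -, hπk⟩ := h.exists_move (Ne.symm hy) (Ne.symm hx)
  have hπM : 𝔉.Mono Finset.univ π := fun k _ => ⟨_, Finset.mem_univ _, 1, by rw [one_smul]; exact hπk k⟩
  have := hπM.inv.mul (h.point (π * g) (mul_mem hπ hg) ⟨i, s, by
    rw [mul_mulVec, hs, Matrix.mulVec_smul, hπk, hpj]⟩)
  rwa [inv_mul_cancel_left] at this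

/-- A member fixing an image of a frame vector permutes the images of the other frame vectors. -/
lemma image_perm {g π : GL ι F} (hg : g ∈ H) (hπ : π ∈ H) {i : κ}
    (hfix : (π : Matrix ι ι F) *ᵥ ((g : Matrix ι ι F) *ᵥ 𝔉.basis i) = (g : Matrix ι ι F) *ᵥ 𝔉.basis i) (j : κ) :
    ∃ l : κ, ∃ s : F, s * s = 1 ∧
      (π : Matrix ι ι F) *ᵥ ((g : Matrix ι ι F) *ᵥ 𝔉.basis j) = s • (g : Matrix ι ι F) *ᵥ 𝔉.basis l := by
  have hm : g⁻¹ * π * g ∈ H := mul_mem (mul_mem (inv_mem hg) hπ) hg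
  have hM := h.point _ hm ⟨i, 1, by
    rw [mul_mulVec, mul_mulVec, hfix, inv_mulVec_cancel, one_smul]⟩
  obtain ⟨σ, c, hc2, hc⟩ := mono_signed (h.mem_iso hm) hM
  refine ⟨σ j, c j, hc2 j, ?_⟩
  have h1 := congrArg (fun v => (g : Matrix ι ι F) *ᵥ v) (hc j)
  simp only [mul_mulVec, mulVec_inv_cancel, Matrix.mulVec_smul] at h1
  exact h1

/-- Such a member moves an image to one with inner product zero or a sign. -/
lemma image_dot {g π : GL ι F} (hg : g ∈ H) (hπ : π ∈ H) {i : κ}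
    (hfix : (π : Matrix ι ι F) *ᵥ ((g : Matrix ι ι F) *ᵥ 𝔉.basis i) = (g : Matrix ι ι F) *ᵥ 𝔉.basis i) (j : κ) :
    let D := 𝔉.dot ((g : Matrix ι ι F) *ᵥ 𝔉.basis j) ((π : Matrix ι ι F) *ᵥ ((g : Matrix ι ι F) *ᵥ 𝔉.basis j))
    D = 0 ∨ D = 1 ∨ D = -1 := by
  obtain ⟨l, s, hs, he⟩ := h.image_perm hg hπ hfix j
  intro D
  have hD : D = s * 𝔉.co (𝔉.basis l) j := by
    show 𝔉.dot _ _ = _
    rw [he, dot_smul_right, 𝔉.dot_isometry (h.mem_iso hg), dot_basis_left]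
  rw [hD]
  by_cases hlj : l = j
  · subst hlj
    rw [co_basis_self, mul_one]
    exact Or.inr (mul_self_eq_one_iff.1 hs)
  · rw [co_basis_ne (h := hlj), mul_zero]
    exact Or.inl rfl

end Six

end CfsgLib.FrameSix90
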