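import Cfsg.Agent.OrthMono17.Spread

/-!
Six frame vectors: a group with the even sign changes and three-cycles either has monomial line stabilisers
of the frame vectors or contains the commutator subgroup of the isometry group.
-/

set_option autoImplicit false
set_option linter.unusedSectionVars false

namespace CfsgLib.FrameSix90

open Cfsg.Geo Module CfsgLib.OrthGeo CfsgLib.OrthMono17 CfsgLib.OrthMono17.Frame
open scoped Matrix MatrixGroups

variable {ι : Type} [Fintype ι] [DecidableEq ι] {F : Type*} [Field F] [Fintype F]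
variable {Q : (ι → F) → F} {κ : Type} [Fintype κ] [DecidableEq κ] {𝔉 : Frame Q κ}
variable {H : Subgroup (GL ι F)}

/-- All root elements of some triple give everything. -/
theorem omegaGL_le_of_good (hp : (Fintype.card F).Prime) (h3 : (3 : F) ≠ 0) (h5 : 5 ≤ Fintype.card κ)
    (hι : 5 ≤ Fintype.card ι) (hD : 𝔉.Data H Finset.univ) {S₀ : Finset κ} (hS : S₀.card = 3)
    (hgood₀ : Good 𝔉 H S₀) : omegaGL Q ≤ H := by
  classical
  have hcard : S₀.card + 2 ≤ Fintype.card κ := by omega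
  have hall : ∀ S : Finset κ, S.card = S₀.card → Good 𝔉 H S := fun S hS =>
    good_transport hD hgood₀ hcard _ S hS rfl
  let R : Set (ι → F) := {z | 𝔉.dot z z = 0 ∧ ∀ w, 𝔉.dot z w = 0 → EIn Q H z w}
  suffices hpair : ∀ u, u ≠ 0 → ∃ z ∈ R, ∃ v ∈ R, 𝔉.dot z v ≠ 0 ∧ 𝔉.dot z u ≠ 0 by
    refine omega_le_of_root_vectors 𝔉.nondeg hι hD.iso R (fun z hz => ⟨by rw [𝔉.q_eq, hz.1, mul_zero],
      fun w hw => hz.2 w ?_⟩) fun u _ hu0 => ?_
    · rw [𝔉.bform_eq] at hw
      exact (mul_eq_zero.1 hw).resolve_left (mul_ne_zero 𝔉.two_ne 𝔉.lam_ne)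
    · obtain ⟨z, hz, v, hv, hzv, hzu⟩ := hpair u hu0
      refine ⟨z, hz, v, hv, ?_, ?_⟩ <;>
        rw [𝔉.bform_eq] <;> exact mul_ne_zero (mul_ne_zero 𝔉.two_ne 𝔉.lam_ne) (by assumption)
  intro u hu0
  obtain ⟨c, hc⟩ : ∃ c, 𝔉.co u c ≠ 0 := by
    by_contra h
    push Not at h
    exact hu0 (𝔉.ext_co fun k => by rw [h k, co_zero])
  obtain ⟨a, ha, b, hb, hab⟩ := Finset.one_lt_card.1 (show 1 < (Finset.univ.erase c).card by
    rw [Finset.card_erase_of_mem (Finset.mem_univ c), Finset.card_univ]; omega)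
  rw [Finset.mem_erase] at ha hb
  have h2 := 𝔉.two_ne
  have hg3 : ∀ S : Finset κ, S.card = 3 → Good 𝔉 H S := fun S h => hall S (by omega)
  by_cases hsq : ∃ e : F, e * e = -1
  · obtain ⟨e, he⟩ := hsq
    have he' : -e * -e = -1 := by linear_combination he
    have he0 : e ≠ 0 := fun h => by rw [h, zero_mul] at he; exact neg_ne_zero.2 one_ne_zero he.symm
    set zp := 𝔉.basis a + e • 𝔉.basis c
    set zm := 𝔉.basis a + -e • 𝔉.basis c
    have hp1 : zp ∈ R := pair_full hp h3 (by omega) hg3 ha.1 he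
    have hm1 : zm ∈ R := pair_full hp h3 (by omega) hg3 ha.1 he'
    have hpm : 𝔉.dot zp zm = 2 := by
      simp [zp, zm, co_basis_ne (h := ha.1), co_basis_ne (h := Ne.symm ha.1)]
      linear_combination -he
    by_cases hd : 𝔉.dot zp u = 0
    · refine ⟨zm, hm1, zp, hp1, by rw [dot_comm, hpm]; exact h2, fun h' => hc ?_⟩
      have : 2 * e * 𝔉.co u c = 0 := by
        simp [zp, zm] at hd h'
        linear_combination hd - h'
      exact (mul_eq_zero.1 this).resolve_left (mul_ne_zero h2 he0)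
    · exact ⟨zp, hp1, zm, hm1, by rw [hpm]; exact h2, hd⟩
  · push Not at hsq
    obtain ⟨F₁, F₂, σ, hσ, hfull⟩ := triple_full hp h3 hsq hD.iso hg3
    set zp := -F₂ • 𝔉.basis a + F₁ • 𝔉.basis b + σ • 𝔉.basis c with hzp
    set zm := -F₂ • 𝔉.basis a + F₁ • 𝔉.basis b + -σ • 𝔉.basis c with hzm
    have hp1 : zp ∈ R := hfull a b c hab ha.1 hb.1 σ rfl
    have hm1 : zm ∈ R := hfull a b c hab ha.1 hb.1 (-σ) (by ring)
    have hpm : 𝔉.dot zp zm = -2 * (σ * σ) := by
      have h := hp1.1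
      simp [hzp, co_basis_ne (h := hab), co_basis_ne (h := Ne.symm hab), co_basis_ne (h := ha.1),
        co_basis_ne (h := Ne.symm ha.1), co_basis_ne (h := hb.1), co_basis_ne (h := Ne.symm hb.1)] at h
      simp [hzp, hzm, co_basis_ne (h := hab), co_basis_ne (h := Ne.symm hab), co_basis_ne (h := ha.1),
        co_basis_ne (h := Ne.symm ha.1), co_basis_ne (h := hb.1), co_basis_ne (h := Ne.symm hb.1)]
      linear_combination h
    have hpm0 : 𝔉.dot zp zm ≠ 0 := by
      rw [hpm]; exact mul_ne_zero (neg_ne_zero.2 h2) (mul_ne_zero hσ hσ)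
    by_cases hd : 𝔉.dot zp u = 0
    · refine ⟨zm, hm1, zp, hp1, by rw [dot_comm]; exact hpm0, fun h' => hc ?_⟩
      have : 2 * σ * 𝔉.co u c = 0 := by
        simp [hzp, hzm] at hd h'
        linear_combination hd - h'
      exact (mul_eq_zero.1 this).resolve_left (mul_ne_zero h2 hσ)
    · exact ⟨zp, hp1, zm, hm1, hpm0, hd⟩

/-- A non-monomial member fixing the line of a frame vector gives everything. -/
theorem omegaGL_le_of_point (hp : (Fintype.card F).Prime) (h3 : (3 : F) ≠ 0) (hκ : Fintype.card κ = 6)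
    (hι : 5 ≤ Fintype.card ι) (hD : 𝔉.Data H Finset.univ) {k : κ} {g : GL ι F} (hg : g ∈ H)
    (hgk : ∃ s : F, (g : Matrix ι ι F) *ᵥ 𝔉.basis k = s • 𝔉.basis k) (hn : ¬ 𝔉.Mono Finset.univ g) :
    omegaGL Q ≤ H := by
  classical
  have hunit : ∀ (x : GL ι F), x ∈ H → ∀ s : F, (x : Matrix ι ι F) *ᵥ 𝔉.basis k = s • 𝔉.basis k → s * s = 1 := by
    intro x hx s hs
    have h := 𝔉.dot_isometry (hD.iso hx) (𝔉.basis k) (𝔉.basis k)
    rw [hs] at h
    simpa using h
  let K : Subgroup (GL ι F) :=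
    { carrier := {x | x ∈ H ∧ ∃ s : F, (x : Matrix ι ι F) *ᵥ 𝔉.basis k = s • 𝔉.basis k}
      one_mem' := ⟨one_mem _, 1, by simp⟩
      mul_mem' := by
        rintro a b ⟨ha, s, hs⟩ ⟨hb, t, ht⟩
        exact ⟨mul_mem ha hb, t * s, by
          rw [Units.val_mul, ← Matrix.mulVec_mulVec, ht, Matrix.mulVec_smul, hs, smul_smul]⟩
      inv_mem' := by
        rintro a ⟨ha, s, hs⟩
        refine ⟨inv_mem ha, s, ?_⟩
        have h1 := congrArg (fun v => ((a⁻¹ : GL ι F) : Matrix ι ι F) *ᵥ v) hs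
        simp only [inv_mulVec_cancel, Matrix.mulVec_smul] at h1
        conv_rhs => rw [h1]
        rw [smul_smul, hunit a ha s hs, one_smul] }
  set J := Finset.univ.erase k with hJ
  have hmemJ : ∀ {l : κ}, l ≠ k → l ∈ J := fun h => Finset.mem_erase.2 ⟨h, Finset.mem_univ _⟩
  have hDK : 𝔉.Data K J := by
    refine ⟨fun x hx => hD.iso hx.1, fun x hx v hv l hl => ?_, fun a ha b hb hab => ?_,
      fun a ha b hb c hc hab hbc hac => ?_⟩
    · obtain rfl : l = k := by simpa [hJ] using hl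
      obtain ⟨hxH, s, hs⟩ := hx
      have h := 𝔉.dot_isometry (hD.iso hxH) v (𝔉.basis l)
      rw [hs, dot_smul_right, dot_basis_right, dot_basis_right, hv l (by simp [hJ])] at h
      exact (mul_eq_zero.1 h).resolve_left fun h0 => by simpa [h0] using hunit x hxH s hs
    · obtain ⟨x, hx, hxk⟩ := hD.sgn a (Finset.mem_univ _) b (Finset.mem_univ _) hab
      refine ⟨x, ⟨hx, 1, ?_⟩, fun l _ => hxk l (Finset.mem_univ _)⟩
      rw [hxk k (Finset.mem_univ _), if_neg]
      rintro (rfl | rfl)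
      exacts [(Finset.mem_erase.1 ha).1 rfl, (Finset.mem_erase.1 hb).1 rfl]
    · obtain ⟨x, hx, hxk⟩ := hD.cyc a (Finset.mem_univ _) b (Finset.mem_univ _) c (Finset.mem_univ _) hab hbc hac
      refine ⟨x, ⟨hx, 1, ?_⟩, fun l _ => hxk l (Finset.mem_univ _)⟩
      rw [hxk k (Finset.mem_univ _), if_neg (fun e : k = a => (Finset.mem_erase.1 ha).1 e.symm),
        if_neg (fun e : k = b => (Finset.mem_erase.1 hb).1 e.symm),
        if_neg (fun e : k = c => (Finset.mem_erase.1 hc).1 e.symm), one_smul]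
  have hJc : J.card = 5 := by rw [hJ, Finset.card_erase_of_mem (Finset.mem_univ _), Finset.card_univ, hκ]
  have hnK : ¬ ∀ x ∈ K, 𝔉.Mono J x := fun h => hn fun i _ => by
    by_cases hik : i = k
    · subst hik
      obtain ⟨s, hs⟩ := hgk
      exact ⟨i, Finset.mem_univ _, s, hs⟩
    · obtain ⟨j, _, c, hc⟩ := h g ⟨hg, hgk⟩ i (hmemJ hik)
      exact ⟨j, Finset.mem_univ _, c, hc⟩
  obtain ⟨S₀, hS₀, hcase, hEJ⟩ :=
    concl_of_not_mono hp 5 K J hJc hDK (by decide) le_rfl (fun _ => h3) hnK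
  have hS : S₀.card = 3 := by
    rcases hcase with ⟨-, h⟩ | ⟨h, -⟩
    exacts [h, absurd h h3]
  refine omegaGL_le_of_good hp h3 (by omega) hι hD hS fun z w hz hw hzz hzw _ => ?_
  obtain ⟨x, hx, hxv⟩ := hEJ z ((2 : F)⁻¹ • w) hz (hw.smul _) hzz (by rw [dot_smul_right, hzw, mul_zero])
    fun h => absurd h h3
  have hxxJ : ∀ v, 𝔉.InS J v → ((x * x : GL ι F) : Matrix ι ι F) *ᵥ v = eichlerMat Q z w *ᵥ v := by
    intro v hv
    rw [Units.val_mul, ← Matrix.mulVec_mulVec, hxv v hv,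
      hxv _ (hv.eichler (hz.mono hS₀) ((hw.smul _).mono hS₀)), Matrix.mulVec_mulVec,
      eichlerMat_mul 𝔉.nondeg (by rw [𝔉.q_eq, hzz, mul_zero])
        (by rw [𝔉.bform_eq, dot_smul_right, hzw, mul_zero, mul_zero])
        (by rw [𝔉.bform_eq, dot_smul_right, hzw, mul_zero, mul_zero]), ← add_smul]
    congr 3
    rw [show (2 : F)⁻¹ + 2⁻¹ = 1 by rw [← two_mul, mul_inv_cancel₀ 𝔉.two_ne], one_smul]
  refine ⟨x * x, mul_mem hx.1 hx.1, ?_⟩
  refine Matrix.toLin'.injective (𝔉.basis.ext fun l => ?_)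
  simp only [Matrix.toLin'_apply]
  by_cases hlk : l = k
  · subst hlk
    obtain ⟨hxH, s, hs⟩ := hx
    rw [eichler_fix_outside hz hw (fun h => (Finset.mem_erase.1 (hS₀ h)).1 rfl), Units.val_mul,
      ← Matrix.mulVec_mulVec, hs, Matrix.mulVec_smul, hs, smul_smul, hunit x hxH s hs, one_smul]
  · exact hxxJ _ (𝔉.inS_basis (hmemJ hlk))

end CfsgLib.FrameSix90
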