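import Cfsg.Agent.FrameSix90.Point
import Mathlib.LinearAlgebra.Matrix.Permutation

/-!
Six frame vectors: members commuting with the sign change of two frame vectors are monomial as soon as the
members fixing the line of a frame vector are.
-/

set_option autoImplicit false
set_option linter.unusedSectionVars false

namespace CfsgLib.FrameSix90

open Cfsg.Geo Module CfsgLib.OrthGeo CfsgLib.OrthMono17 CfsgLib.OrthMono17.Frame
open scoped Matrix MatrixGroups

variable {ι : Type} [Fintype ι] [DecidableEq ι] {F : Type*} [Field F] [Fintype F]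
variable {Q : (ι → F) → F} {κ : Type} [Fintype κ] [DecidableEq κ]

/-- The standing hypotheses: a group with the even sign changes and three-cycles of six frame vectors, of
determinant one, whose members fixing the line of a frame vector are monomial. -/
structure Six (𝔉 : Frame Q κ) (H : Subgroup (GL ι F)) : Prop where
  card_six : Fintype.card κ = 6
  three_ne : ∀ x : F, 2 * x * x = 1 → (3 : F) ≠ 0
  data : 𝔉.Data H Finset.univ
  det_one : ∀ g ∈ H, (g : Matrix ι ι F).det = 1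
  point : ∀ g ∈ H, (∃ k : κ, ∃ s : F, (g : Matrix ι ι F) *ᵥ 𝔉.basis k = s • 𝔉.basis k) →
    𝔉.Mono Finset.univ g

variable (𝔉 : Frame Q κ)

/-- The element changes exactly the signs of the two frame vectors. -/
def IsSgn (g : GL ι F) (a b : κ) : Prop :=
  ∀ k, (g : Matrix ι ι F) *ᵥ 𝔉.basis k = (if k = a ∨ k = b then (-1 : F) else 1) • 𝔉.basis k

variable {𝔉}

lemma gl_ext_basis {g h : GL ι F}
    (e : ∀ k, (g : Matrix ι ι F) *ᵥ 𝔉.basis k = (h : Matrix ι ι F) *ᵥ 𝔉.basis k) : g = h :=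
  Units.ext (Matrix.toLin'.injective (𝔉.basis.ext fun k => by simpa [Matrix.toLin'_apply] using e k))

lemma mul_mulVec (g h : GL ι F) (x : ι → F) :
    ((g * h : GL ι F) : Matrix ι ι F) *ᵥ x = (g : Matrix ι ι F) *ᵥ ((h : Matrix ι ι F) *ᵥ x) := by
  rw [Units.val_mul, Matrix.mulVec_mulVec]

lemma IsSgn.co_mulVec {t : GL ι F} {a b : κ} (ht : IsSgn 𝔉 t a b) (x : ι → F) (k : κ) :
    𝔉.co ((t : Matrix ι ι F) *ᵥ x) k = (if k = a ∨ k = b then (-1 : F) else 1) * 𝔉.co x k :=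
  co_mulVec_mono (𝔉.inS_univ x) (σ := id) (fun l _ => ht l) Function.injective_id.injOn (Finset.mem_univ k)

lemma IsSgn.mulVec_mulVec {t : GL ι F} {a b : κ} (ht : IsSgn 𝔉 t a b) (x : ι → F) :
    (t : Matrix ι ι F) *ᵥ ((t : Matrix ι ι F) *ᵥ x) = x :=
  𝔉.ext_co fun k => by rw [ht.co_mulVec, ht.co_mulVec]; split_ifs <;> ring

lemma IsSgn.mul_self {t : GL ι F} {a b : κ} (ht : IsSgn 𝔉 t a b) : t * t = 1 :=
  gl_ext_basis (𝔉 := 𝔉) fun k => by rw [mul_mulVec, ht.mulVec_mulVec, Units.val_one, Matrix.one_mulVec]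

lemma IsSgn.inS_of_neg {t : GL ι F} {a b : κ} (ht : IsSgn 𝔉 t a b) {x : ι → F}
    (hx : (t : Matrix ι ι F) *ᵥ x = -x) : 𝔉.InS {a, b} x := by
  intro k hk
  simp only [Finset.mem_insert, Finset.mem_singleton] at hk
  have h := congrArg (fun v => 𝔉.co v k) hx
  simp only [ht.co_mulVec, if_neg hk, one_mul, co_neg] at h
  have : (2 : F) * 𝔉.co x k = 0 := by linear_combination h
  exact (mul_eq_zero.1 this).resolve_left 𝔉.two_ne

lemma IsSgn.mulVec_inS {t : GL ι F} {a b : κ} (ht : IsSgn 𝔉 t a b) {x : ι → F}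
    (hx : 𝔉.InS {a, b} x) : (t : Matrix ι ι F) *ᵥ x = -x :=
  𝔉.ext_co fun k => by
    rw [ht.co_mulVec, co_neg]
    by_cases hk : k = a ∨ k = b
    · rw [if_pos hk]; ring
    · rw [hx k (by simpa using hk)]; ring

lemma IsSgn.inS_of_fix {t : GL ι F} {a b : κ} (ht : IsSgn 𝔉 t a b) {x : ι → F}
    (hx : (t : Matrix ι ι F) *ᵥ x = x) : 𝔉.InS ((Finset.univ.erase a).erase b) x := by
  intro k hk
  simp only [Finset.mem_erase, Finset.mem_univ, and_true, not_and_or, not_not] at hk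
  have h := congrArg (fun v => 𝔉.co v k) hx
  simp only [ht.co_mulVec, if_pos hk.symm] at h
  have : (2 : F) * 𝔉.co x k = 0 := by linear_combination -h
  exact (mul_eq_zero.1 this).resolve_left 𝔉.two_ne

lemma IsSgn.eq {t t' : GL ι F} {a b : κ} (ht : IsSgn 𝔉 t a b) (ht' : IsSgn 𝔉 t' a b) : t = t' :=
  gl_ext_basis (𝔉 := 𝔉) fun k => by rw [ht k, ht' k]

/-- A monomial isometry as a signed permutation. -/
lemma mono_signed {g : GL ι F} (hgI : g ∈ Cfsg.isometryGroup F Q) (hg : 𝔉.Mono Finset.univ g) :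
    ∃ (σ : Equiv.Perm κ) (c : κ → F), (∀ k, c k * c k = 1) ∧
      ∀ k, (g : Matrix ι ι F) *ᵥ 𝔉.basis k = c k • 𝔉.basis (σ k) := by
  choose σ _ c hc using fun i => hg i (Finset.mem_univ i)
  have hsq : ∀ i, c i * c i = 1 := fun i => by
    have h1 := 𝔉.dot_isometry hgI (𝔉.basis i) (𝔉.basis i)
    rw [hc] at h1
    simpa using h1
  have hinj : Function.Injective σ := by
    intro i j hij
    by_contra hne
    have h1 := 𝔉.dot_isometry hgI (𝔉.basis i) (𝔉.basis j)
    rw [hc, hc, hij] at h1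
    simp [co_basis_ne (h := hne), co_basis_ne (h := Ne.symm hne)] at h1
    rcases h1 with h | h <;> first | simpa [h] using hsq i | simpa [h] using hsq j
  exact ⟨Equiv.ofBijective σ (Finite.injective_iff_bijective.1 hinj), c, hsq, hc⟩

/-- The determinant of a signed permutation of the frame. -/
lemma det_monomial {g : GL ι F} {σ : Equiv.Perm κ} {c : κ → F}
    (hc : ∀ k, (g : Matrix ι ι F) *ᵥ 𝔉.basis k = c k • 𝔉.basis (σ k)) :
    (g : Matrix ι ι F).det = (Equiv.Perm.sign σ : ℤ) * ∏ k, c k := by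
  rw [← LinearMap.det_toLin', ← LinearMap.det_toMatrix 𝔉.basis]
  have : LinearMap.toMatrix 𝔉.basis 𝔉.basis (Matrix.toLin' (g : Matrix ι ι F)) =
      Matrix.of (fun i j => if i = σ j then c j else 0) := by
    ext i j
    rw [LinearMap.toMatrix_apply, Matrix.toLin'_apply, hc, Matrix.of_apply, map_smul, Finsupp.smul_apply,
      Basis.repr_self, Finsupp.single_apply, smul_eq_mul]
    by_cases h : i = σ j
    · subst h; simp
    · rw [if_neg h, if_neg (Ne.symm h), mul_zero]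
  rw [this, show Matrix.of (fun i j => if i = σ j then c j else 0) =
      (Equiv.Perm.permMatrix F σ⁻¹) * Matrix.diagonal c by
    ext i j
    rw [Matrix.mul_diagonal, Matrix.of_apply, Equiv.Perm.permMatrix, PEquiv.toMatrix_apply]
    simp only [Equiv.toPEquiv_apply, Option.mem_def, Option.some.injEq]
    by_cases h : i = σ j
    · subst h; simp
    · rw [if_neg h, if_neg, zero_mul]
      intro e; apply h; rw [← e]; simp]
  rw [Matrix.det_mul, Matrix.det_permutation, Matrix.det_diagonal, Equiv.Perm.sign_inv]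

variable {H : Subgroup (GL ι F)}

namespace Six

variable (h : Six 𝔉 H)
include h

lemma mem_iso {g : GL ι F} (hg : g ∈ H) : g ∈ Cfsg.isometryGroup F Q := h.data.iso hg

lemma exists_sgn {a b : κ} (hab : a ≠ b) : ∃ t ∈ H, IsSgn 𝔉 t a b := by
  obtain ⟨t, ht, htk⟩ := h.data.sgn a (Finset.mem_univ _) b (Finset.mem_univ _) hab
  exact ⟨t, ht, fun k => htk k (Finset.mem_univ _)⟩

lemma exists_cyc {a b c : κ} (hab : a ≠ b) (hbc : b ≠ c) (hac : a ≠ c) : ∃ g ∈ H,
    ∀ k, (g : Matrix ι ι F) *ᵥ 𝔉.basis k =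
      𝔉.basis (if k = a then b else if k = b then c else if k = c then a else k) := by
  obtain ⟨g, hg, hgk⟩ := h.data.cyc a (Finset.mem_univ _) b (Finset.mem_univ _) c (Finset.mem_univ _) hab hbc hac
  exact ⟨g, hg, fun k => hgk k (Finset.mem_univ _)⟩

/-- Two disjoint transpositions. -/
lemma exists_double {a b c d : κ} (hab : a ≠ b) (hac : a ≠ c) (had : a ≠ d) (hbc : b ≠ c) (hbd : b ≠ d)
    (hcd : c ≠ d) : ∃ g ∈ H,
    ∀ k, (g : Matrix ι ι F) *ᵥ 𝔉.basis k = 𝔉.basis (Equiv.swap a b (Equiv.swap c d k)) := by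
  obtain ⟨x, hx, hxk⟩ := h.exists_cyc hab hbc hac
  obtain ⟨y, hy, hyk⟩ := h.exists_cyc hbc hcd hbd
  refine ⟨x * y, mul_mem hx hy, fun k => ?_⟩
  rw [mul_mulVec, hyk, hxk]
  congr 1
  simp only [Equiv.swap_apply_def]
  grind

/-- The conjugates of the sign changes of the other frame vectors are diagonal. -/
lemma conj_sgn_diag {t g : GL ι F} {e f a b : κ} (ht : IsSgn 𝔉 t e f) (hef : e ≠ f) (hg : g ∈ H)
    (hcom : g * t = t * g) (hab : a ≠ b) (hae : a ≠ e) (haf : a ≠ f) (hbe : b ≠ e) (hbf : b ≠ f)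
    {u : GL ι F} (hu : IsSgn 𝔉 u a b) :
    ∀ k, ∃ s : F, ((g * u * g⁻¹ : GL ι F) : Matrix ι ι F) *ᵥ 𝔉.basis k = s • 𝔉.basis k := by
  classical
  have h2 := 𝔉.two_ne
  obtain ⟨P, hP, hPk⟩ := h.exists_double hef hae.symm hbe.symm haf.symm hbf.symm hab
  obtain ⟨z, hz, hzk⟩ := h.exists_sgn hae.symm
  obtain ⟨w, hw⟩ : ∃ w, w = P * z := ⟨_, rfl⟩
  have hwH : w ∈ H := hw ▸ mul_mem hP hz
  have hwk : ∀ k, (w : Matrix ι ι F) *ᵥ 𝔉.basis k = (if k = e ∨ k = a then (-1 : F) else 1) •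
      𝔉.basis (Equiv.swap e f (Equiv.swap a b k)) := fun k => by
    rw [hw, mul_mulVec, hzk k, Matrix.mulVec_smul, hPk]
  have we : (w : Matrix ι ι F) *ᵥ 𝔉.basis e = -𝔉.basis f := by
    rw [hwk, if_pos (Or.inl rfl), Equiv.swap_apply_of_ne_of_ne hae.symm hbe.symm, Equiv.swap_apply_left, neg_one_smul]
  have wf : (w : Matrix ι ι F) *ᵥ 𝔉.basis f = 𝔉.basis e := by
    rw [hwk, if_neg (not_or.2 ⟨hef.symm, haf.symm⟩), Equiv.swap_apply_of_ne_of_ne haf.symm hbf.symm,
      Equiv.swap_apply_right, one_smul]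
  have hskew : ∀ x, 𝔉.InS {e, f} x → 𝔉.dot ((w : Matrix ι ι F) *ᵥ x) x = 0 := by
    intro x hx
    have hex : x = 𝔉.co x e • 𝔉.basis e + 𝔉.co x f • 𝔉.basis f := by
      conv_lhs => rw [← hx.sum_eq, Finset.sum_pair hef]
    rw [hex, Matrix.mulVec_add, Matrix.mulVec_smul, Matrix.mulVec_smul, we, wf]
    simp [co_basis_ne (h := hef), co_basis_ne (h := hef.symm)]
    ring
  have hww : w * w = u * t := by
    refine gl_ext_basis (𝔉 := 𝔉) fun k => ?_
    rw [mul_mulVec, mul_mulVec, ht k, Matrix.mulVec_smul, hu k, hwk k, Matrix.mulVec_smul, hwk, smul_smul, smul_smul]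
    by_cases hke : k = e
    · subst hke
      rw [Equiv.swap_apply_of_ne_of_ne hae.symm hbe.symm, Equiv.swap_apply_left,
        Equiv.swap_apply_of_ne_of_ne haf.symm hbf.symm, Equiv.swap_apply_right]
      simp [hef.symm, haf.symm, hae.symm, hbe.symm]
    by_cases hkf : k = f
    · subst hkf
      rw [Equiv.swap_apply_of_ne_of_ne haf.symm hbf.symm, Equiv.swap_apply_right,
        Equiv.swap_apply_of_ne_of_ne hae.symm hbe.symm, Equiv.swap_apply_left]
      simp [hef.symm, haf.symm, hbf.symm]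
    by_cases hka : k = a
    · subst hka
      rw [Equiv.swap_apply_left, Equiv.swap_apply_of_ne_of_ne hbe hbf, Equiv.swap_apply_right,
        Equiv.swap_apply_of_ne_of_ne hae haf]
      simp [hke, hkf, hab.symm, hbe]
    by_cases hkb : k = b
    · subst hkb
      rw [Equiv.swap_apply_right, Equiv.swap_apply_of_ne_of_ne hae haf, Equiv.swap_apply_left,
        Equiv.swap_apply_of_ne_of_ne hke hkf]
      simp [hke, hkf, hka]
    rw [Equiv.swap_apply_of_ne_of_ne hka hkb, Equiv.swap_apply_of_ne_of_ne hke hkf,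
      Equiv.swap_apply_of_ne_of_ne hka hkb, Equiv.swap_apply_of_ne_of_ne hke hkf]
    simp [hke, hkf, hka, hkb]
  have hgi : g⁻¹ * t = t * g⁻¹ := by rw [inv_mul_eq_iff_eq_mul, ← mul_assoc, hcom, mul_inv_cancel_right]
  have hgP : ∀ x, 𝔉.InS {e, f} x → 𝔉.InS {e, f} (((g⁻¹ : GL ι F) : Matrix ι ι F) *ᵥ x) := fun x hx => by
    refine ht.inS_of_neg ?_
    rw [← mul_mulVec, ← hgi, mul_mulVec, ht.mulVec_inS hx, Matrix.mulVec_neg]
  have hgP' : ∀ x, 𝔉.InS {e, f} x → 𝔉.InS {e, f} ((g : Matrix ι ι F) *ᵥ x) := fun x hx => by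
    refine ht.inS_of_neg ?_
    rw [← mul_mulVec, ← hcom, mul_mulVec, ht.mulVec_inS hx, Matrix.mulVec_neg]
  set w' := g * w * g⁻¹ with hw'
  have hw'H : w' ∈ H := mul_mem (mul_mem hg hwH) (inv_mem hg)
  have hw'k : ∀ x, 𝔉.InS {e, f} x → 𝔉.InS {e, f} ((w' : Matrix ι ι F) *ᵥ x) ∧
      𝔉.dot ((w' : Matrix ι ι F) *ᵥ x) x = 0 := by
    intro x hx
    have hy := hgP x hx
    set y := ((g⁻¹ : GL ι F) : Matrix ι ι F) *ᵥ x with hydef
    have hwy : 𝔉.InS {e, f} ((w : Matrix ι ι F) *ᵥ y) := by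
      rw [← hy.sum_eq, Finset.sum_pair hef, Matrix.mulVec_add, Matrix.mulVec_smul, Matrix.mulVec_smul, we, wf]
      exact ((𝔉.inS_basis (by simp)).neg.smul _).add ((𝔉.inS_basis (by simp)).smul _)
    have e1 : (w' : Matrix ι ι F) *ᵥ x = (g : Matrix ι ι F) *ᵥ ((w : Matrix ι ι F) *ᵥ y) := by
      rw [hw', mul_mulVec, mul_mulVec]
    refine ⟨e1 ▸ hgP' _ hwy, ?_⟩
    rw [e1, ← mulVec_inv_cancel g x, ← hydef, 𝔉.dot_isometry (h.mem_iso hg), hskew y hy]
  have hline : ∀ p q : κ, ({p, q} : Finset κ) = {e, f} → p ≠ q →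
      (w' : Matrix ι ι F) *ᵥ 𝔉.basis p = 𝔉.co ((w' : Matrix ι ι F) *ᵥ 𝔉.basis p) q • 𝔉.basis q := by
    intro p q hpq hne
    obtain ⟨h1, h2'⟩ := hw'k (𝔉.basis p) (hpq ▸ 𝔉.inS_basis (by simp))
    rw [dot_basis_right] at h2'
    rw [← hpq] at h1
    conv_lhs => rw [← h1.sum_eq, Finset.sum_pair hne, h2', zero_smul, zero_add]
  have hlf := hline f e (Finset.pair_comm f e) hef.symm
  have hM : 𝔉.Mono Finset.univ w' := by
    have hh : 𝔉.Mono Finset.univ (w' * w) := h.point _ (mul_mem hw'H hwH) ⟨e,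
      -𝔉.co ((w' : Matrix ι ι F) *ᵥ 𝔉.basis f) e, by
      rw [mul_mulVec, we, Matrix.mulVec_neg, neg_smul, ← hlf]⟩
    have hwM : 𝔉.Mono Finset.univ w := fun i _ => ⟨_, Finset.mem_univ _, _, hwk i⟩
    have := hh.mul hwM.inv
    rwa [mul_inv_cancel_right] at this
  obtain ⟨σ, c, hc2, hc⟩ := mono_signed (h.mem_iso hw'H) hM
  have hc0 : ∀ k, c k ≠ 0 := fun k h0 => by simpa [h0] using hc2 k
  have htM : ∀ k, (t : Matrix ι ι F) *ᵥ 𝔉.basis k = (if k = e ∨ k = f then (-1 : F) else 1) • 𝔉.basis k := ht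
  have hsq' : w' * w' = g * (u * t) * g⁻¹ := by rw [hw', ← hww]; group
  have hfour : w' * w' * (w' * w') = 1 := by
    have hut : u * t = t * u := gl_ext_basis (𝔉 := 𝔉) fun k => by
      rw [mul_mulVec, mul_mulVec, ht k, hu k, Matrix.mulVec_smul, Matrix.mulVec_smul, ht k, hu k, smul_smul,
        smul_smul, mul_comm]
    rw [hsq']
    calc g * (u * t) * g⁻¹ * (g * (u * t) * g⁻¹) = g * ((u * t) * (t * u)) * g⁻¹ := by rw [← hut]; group
      _ = g * (u * (t * t) * u) * g⁻¹ := by group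
      _ = 1 := by rw [ht.mul_self, mul_one, hu.mul_self, mul_one, mul_inv_cancel]
  have hσe : σ e = f ∧ σ f = e := by
    constructor
    · by_contra hne
      have h1 := (hc e).symm.trans (hline e f rfl hef)
      have := congrArg (fun v => 𝔉.co v (σ e)) h1
      simp [co_basis_ne (h := Ne.symm hne)] at this
      exact hc0 e this
    · by_contra hne
      have h1 := (hc f).symm.trans hlf
      have := congrArg (fun v => 𝔉.co v (σ f)) h1
      simp [co_basis_ne (h := Ne.symm hne)] at this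
      exact hc0 f this
  have hiter : ∀ k, ((w' * w' : GL ι F) : Matrix ι ι F) *ᵥ 𝔉.basis k = (c k * c (σ k)) • 𝔉.basis (σ (σ k)) :=
    fun k => by rw [mul_mulVec, hc, Matrix.mulVec_smul, hc, smul_smul]
  have hcef : c e * c f = -1 := by
    have h1 := hiter e
    rw [hσe.1, hσe.2, hsq', mul_mulVec, mul_mulVec] at h1
    have hy : 𝔉.InS {e, f} (((g⁻¹ : GL ι F) : Matrix ι ι F) *ᵥ 𝔉.basis e) := hgP _ (𝔉.inS_basis (by simp))
    have hut : ((u * t : GL ι F) : Matrix ι ι F) *ᵥ (((g⁻¹ : GL ι F) : Matrix ι ι F) *ᵥ 𝔉.basis e) =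
        -(((g⁻¹ : GL ι F) : Matrix ι ι F) *ᵥ 𝔉.basis e) := by
      rw [mul_mulVec, ht.mulVec_inS hy, Matrix.mulVec_neg]
      congr 1
      refine hy.mulVec_congr (B := 1) (fun l hl => ?_) |>.trans (Matrix.one_mulVec _)
      rw [hu l, if_neg, one_smul, Matrix.one_mulVec]
      simp only [Finset.mem_insert, Finset.mem_singleton] at hl
      rcases hl with rfl | rfl
      · exact not_or.2 ⟨hae.symm, hbe.symm⟩
      · exact not_or.2 ⟨haf.symm, hbf.symm⟩
    rw [hut, Matrix.mulVec_neg, mulVec_inv_cancel] at h1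
    have := congrArg (fun v => 𝔉.co v e) h1
    simpa using this.symm
  -- the square is diagonal
  have hinv : ∀ k, σ (σ k) = k := by
    by_contra hne
    push Not at hne
    obtain ⟨p, hp⟩ := hne
    set p₁ := σ p with hp₁
    set p₂ := σ p₁ with hp₂
    set p₃ := σ p₂ with hp₃
    obtain ⟨h4, hprod⟩ : σ p₃ = p ∧ c p * c p₁ * (c p₂ * c p₃) = 1 := by
      have h1 : ((w' * w' * (w' * w') : GL ι F) : Matrix ι ι F) *ᵥ 𝔉.basis p =
          (c p * c p₁ * (c p₂ * c p₃)) • 𝔉.basis (σ p₃) := by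
        rw [mul_mulVec, hiter, Matrix.mulVec_smul, hiter, smul_smul]
      rw [hfour, Units.val_one, Matrix.one_mulVec] at h1
      have hσ : σ p₃ = p := by
        by_contra hn
        have := congrArg (fun v => 𝔉.co v p) h1
        simp [co_basis_ne (h := hn)] at this
      refine ⟨hσ, ?_⟩
      have := congrArg (fun v => 𝔉.co v p) h1
      rw [hσ] at this
      simpa using this.symm
    have hout : ∀ k, k = p ∨ k = p₁ ∨ k = p₂ ∨ k = p₃ → k ≠ e ∧ k ≠ f := by
      have step : ∀ k, σ k ≠ e ∧ σ k ≠ f → k ≠ e ∧ k ≠ f := by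
        intro k hk
        refine ⟨?_, ?_⟩ <;> rintro rfl
        exacts [hk.2 hσe.1, hk.1 hσe.2]
      have h0 : p ≠ e ∧ p ≠ f := by
        refine ⟨?_, ?_⟩ <;> rintro rfl
        · exact hp (by rw [hp₂, hp₁, hσe.1, hσe.2])
        · exact hp (by rw [hp₂, hp₁, hσe.2, hσe.1])
      have h3 : p₃ ≠ e ∧ p₃ ≠ f := step _ (by rw [h4]; exact h0)
      have h2' : p₂ ≠ e ∧ p₂ ≠ f := step _ h3
      have h1 : p₁ ≠ e ∧ p₁ ≠ f := step _ h2'
      rintro k (rfl | rfl | rfl | rfl) <;> assumption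
    have d01 : p ≠ p₁ := fun h' => hp (by rw [hp₂, ← h', ← hp₁, ← h'])
    have d02 : p ≠ p₂ := fun h' => hp h'.symm
    have d13 : p₁ ≠ p₃ := fun h' => d02 (σ.injective h')
    have d12 : p₁ ≠ p₂ := fun h' => d01 (σ.injective h')
    have d23 : p₂ ≠ p₃ := fun h' => d12 (σ.injective h')
    have d03 : p ≠ p₃ := fun h' => d01 (by rw [hp₁, h', h4]; exact h'.symm ▸ rfl)
    obtain ⟨pe, pf⟩ := hout p (Or.inl rfl)
    obtain ⟨p1e, p1f⟩ := hout p₁ (Or.inr (Or.inl rfl))
    obtain ⟨p2e, p2f⟩ := hout p₂ (Or.inr (Or.inr (Or.inl rfl)))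
    obtain ⟨p3e, p3f⟩ := hout p₃ (Or.inr (Or.inr (Or.inr rfl)))
    have hall : (Finset.univ : Finset κ) = {e, f, p, p₁, p₂, p₃} := by
      refine (Finset.eq_univ_of_card _ ?_).symm
      rw [h.card_six, Finset.card_insert_of_notMem (by simp [hef, pe.symm, p1e.symm, p2e.symm, p3e.symm]),
        Finset.card_insert_of_notMem (by simp [pf.symm, p1f.symm, p2f.symm, p3f.symm]),
        Finset.card_insert_of_notMem (by simp [d01, d02, d03]), Finset.card_insert_of_notMem (by simp [d12, d13]),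
        Finset.card_pair d23]
    have hσeq : σ = Equiv.swap e f * (Equiv.swap p p₁ * Equiv.swap p₁ p₂ * Equiv.swap p₂ p₃) := by
      refine Equiv.ext fun k => ?_
      have hk := Finset.mem_univ k
      rw [hall] at hk
      simp only [Finset.mem_insert, Finset.mem_singleton] at hk
      rcases hk with rfl | rfl | rfl | rfl | rfl | rfl
      · rw [hσe.1]; simp [Equiv.swap_apply_def, pe.symm, p1e.symm, p2e.symm, p3e.symm]
      · rw [hσe.2]; simp [Equiv.swap_apply_def, pf.symm, p1f.symm, p2f.symm, p3f.symm, hef.symm]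
      · rw [← hp₁]; simp [Equiv.swap_apply_def, d02, d03, d01, p1e, p1f]
      · rw [← hp₂]; simp [Equiv.swap_apply_def, d12, d13, d02.symm, d12.symm, p2e, p2f]
      · rw [← hp₃]; simp [Equiv.swap_apply_def, d23.symm, d13.symm, d03.symm, p3e, p3f]
      · rw [h4]; simp [Equiv.swap_apply_def, d23.symm, pe, pf]
    have hdet := h.det_one w' hw'H
    rw [det_monomial hc, hσeq, hall, Finset.prod_insert (by simp [hef, pe.symm, p1e.symm, p2e.symm, p3e.symm]),
      Finset.prod_insert (by simp [pf.symm, p1f.symm, p2f.symm, p3f.symm]),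
      Finset.prod_insert (by simp [d01, d02, d03]), Finset.prod_insert (by simp [d12, d13]), Finset.prod_pair d23] at hdet
    simp only [map_mul, Equiv.Perm.sign_swap hef, Equiv.Perm.sign_swap d01, Equiv.Perm.sign_swap d12,
      Equiv.Perm.sign_swap d23] at hdet
    refine h2 ?_
    push_cast at hdet
    linear_combination -hdet + (c p * c p₁ * (c p₂ * c p₃)) * hcef - hprod
  intro k
  refine ⟨c k * c (σ k) * (if k = e ∨ k = f then (-1 : F) else 1), ?_⟩
  have hgu : g * u * g⁻¹ = (w' * w') * t := by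
    rw [hsq']
    calc g * u * g⁻¹ = g * u * (t * t) * g⁻¹ := by rw [ht.mul_self, mul_one]
      _ = g * (u * t) * (t * g⁻¹) := by group
      _ = g * (u * t) * g⁻¹ * t := by rw [← hgi]; group
  rw [hgu, mul_mulVec, htM k, Matrix.mulVec_smul, hiter, hinv k, smul_smul, mul_comm]

/-- Members commuting with a sign change are monomial. -/
theorem mono_of_commute_sgn {t g : GL ι F} {e f : κ} (ht : IsSgn 𝔉 t e f) (hef : e ≠ f) (hg : g ∈ H)
    (hcom : g * t = t * g) : 𝔉.Mono Finset.univ g := by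
  classical
  set R := (Finset.univ.erase e).erase f with hR
  have hgi : g⁻¹ * t = t * g⁻¹ := by rw [inv_mul_eq_iff_eq_mul, ← mul_assoc, hcom, mul_inv_cancel_right]
  have hgP : ∀ x, 𝔉.InS {e, f} x → 𝔉.InS {e, f} (((g⁻¹ : GL ι F) : Matrix ι ι F) *ᵥ x) := fun x hx => by
    refine ht.inS_of_neg ?_
    rw [← mul_mulVec, ← hgi, mul_mulVec, ht.mulVec_inS hx, Matrix.mulVec_neg]
  have hcent : g⁻¹ ∈ 𝔉.cent H e f :=
    mem_cent_of_images (inv_mem hg) (hgP _ (𝔉.inS_basis (by simp))) (hgP _ (𝔉.inS_basis (by simp)))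
  have hRmem : ∀ k, k ∈ R ↔ k ≠ e ∧ k ≠ f := fun k => by simp [hR]; tauto
  have hMR : 𝔉.Mono R g⁻¹ := by
    intro k hk
    set y := ((g⁻¹ : GL ι F) : Matrix ι ι F) *ᵥ 𝔉.basis k with hy
    have hyR : 𝔉.InS R y := h.data.cent_pres (Finset.mem_univ e) (Finset.mem_univ f) hcent _ (𝔉.inS_basis hk)
    have hone : ∀ a ∈ R, ∀ b ∈ R, a ≠ b → 𝔉.co y a ≠ 0 → 𝔉.co y b ≠ 0 → False := by
      intro a ha b hb hab ha0 hb0
      have hb' : b ∈ R.erase a := Finset.mem_erase.2 ⟨hab.symm, hb⟩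
      obtain ⟨d, hd⟩ := Finset.card_pos.1 (show 0 < ((R.erase a).erase b).card by
        rw [Finset.card_erase_of_mem hb', Finset.card_erase_of_mem ha, hR,
          Finset.card_erase_of_mem (Finset.mem_erase.2 ⟨hef.symm, Finset.mem_univ _⟩),
          Finset.card_erase_of_mem (Finset.mem_univ _), Finset.card_univ, h.card_six]
        omega)
      simp only [Finset.mem_erase] at hd
      obtain ⟨hae, haf⟩ := (hRmem a).1 ha
      obtain ⟨hde, hdf⟩ := (hRmem d).1 hd.2.2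
      obtain ⟨u, -, hu⟩ := h.exists_sgn (Ne.symm hd.2.1)
      obtain ⟨s, hs⟩ := h.conj_sgn_diag ht hef hg hcom (Ne.symm hd.2.1) hae haf hde hdf hu k
      have hs' : (u : Matrix ι ι F) *ᵥ y = s • y := by
        have h1 := congrArg (fun v => ((g⁻¹ : GL ι F) : Matrix ι ι F) *ᵥ v) hs
        simp only [Matrix.mulVec_smul, mul_mulVec, inv_mulVec_cancel] at h1
        exact h1
      have hca := congrArg (fun v => 𝔉.co v a) hs'
      have hcb := congrArg (fun v => 𝔉.co v b) hs'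
      simp only [hu.co_mulVec, co_smul, true_or, if_true] at hca
      simp only [hu.co_mulVec, co_smul, if_neg (not_or.2 ⟨hab.symm, Ne.symm hd.1⟩)] at hcb
      exact 𝔉.two_ne (by linear_combination mul_right_cancel₀ hb0 hcb - mul_right_cancel₀ ha0 hca)
    obtain ⟨j, hj, hj0⟩ : ∃ j ∈ R, 𝔉.co y j ≠ 0 := by
      by_contra hno
      push Not at hno
      have h0 : y = 0 := 𝔉.ext_co fun l => by
        rw [co_zero]
        by_cases hl : l ∈ R
        exacts [hno l hl, hyR l hl]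
      have h1 := 𝔉.dot_isometry (h.mem_iso (inv_mem hg)) (𝔉.basis k) (𝔉.basis k)
      rw [← hy, h0] at h1
      simp at h1
    refine ⟨j, hj, 𝔉.co y j, InS.ext hyR ((𝔉.inS_basis hj).smul _) fun l hl => ?_⟩
    by_cases hlj : l = j
    · subst hlj; simp
    · rw [co_smul, co_basis_ne (h := Ne.symm hlj), mul_zero]
      by_contra hl0
      exact hone l hl j hj hlj hl0 hj0
  obtain ⟨μ, hμ, hμM, hμk⟩ :=
    h.data.exists_correction (Finset.mem_univ e) (Finset.mem_univ f) hef hcent hMR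
  obtain ⟨a, ha⟩ := Finset.card_pos.1 (show 0 < R.card by
    rw [hR, Finset.card_erase_of_mem (Finset.mem_erase.2 ⟨hef.symm, Finset.mem_univ _⟩),
      Finset.card_erase_of_mem (Finset.mem_univ _), Finset.card_univ, h.card_six]
    omega)
  have h1 := h.point _ (mul_mem hμ.1 (inv_mem hg)) ⟨a, 1, by rw [one_smul]; exact hμk a ha⟩
  have h2 := (hμM.inv.mul h1).inv
  rwa [← mul_assoc, inv_mul_cancel, one_mul, inv_inv] at h2

end Six

end CfsgLib.FrameSix90
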