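import Cfsg.Agent.FrameSix90.Normalizer
import Cfsg.Agent.Classical.PrimeDerangement.Sympl.Count
import Cfsg.Agent.OrthSmall.Klein
import Cfsg.Agent.Classical.Orth.CentreOmega
import Cfsg.Agent.Aschbacher.Density
import Cfsg.Agent.Eq.Def_GeometricClasses

/-!
Groups of symplectic type of order sixty-four in dimension four: their image on the exterior square is an
elementary abelian group of order thirty-two, so that their normaliser is maximal.
-/

set_option autoImplicit false
set_option linter.unusedSectionVars false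

namespace CfsgLib.FrameSix90

open Matrix CfsgLib.OrthGeo CfsgLib.Classical.Orth
open CfsgLib.Classical.PrimeDerangement (Sympl.Data Sympl.data_of Sympl.trace_eq_zero)

/-- Only signs act trivially on the exterior square of a four-dimensional space. -/
theorem eq_sign_of_klein {K : Type*} [Field K] {A : Matrix (Fin 4) (Fin 4) K}
    (h : OrthSmall.klein A = 1) : A = 1 ∨ A = -1 := by
  have hmat : ∀ v : OrthSmall.I6 → K, A * OrthSmall.mat6 v * Aᵀ = OrthSmall.mat6 v := fun v => by
    rw [← OrthSmall.mat6_klein, h, one_mulVec]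
  have hm : ∀ i j : Fin 4, i ≠ j → ∀ k l : Fin 4,
      A k i * A l j - A k j * A l i = (if k = i ∧ l = j then 1 else 0) - (if k = j ∧ l = i then 1 else 0) := by
    intro i j hij k l
    set E : Matrix (Fin 4) (Fin 4) K := Matrix.single i j 1 - Matrix.single j i 1 with hE
    have hEm : OrthSmall.mat6 (OrthSmall.vec6 E) = E := by
      ext a b
      fin_cases i <;> fin_cases j <;> first
        | exact absurd rfl hij
        | (fin_cases a <;> fin_cases b <;> simp [E, OrthSmall.vec6, OrthSmall.mat6, Matrix.single])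
    have e := congrFun (congrFun (hmat (OrthSmall.vec6 E)) k) l
    rw [hEm, hE, Matrix.mul_sub, Matrix.sub_mul, Matrix.sub_apply, Matrix.sub_apply] at e
    have hs : ∀ x y : Fin 4, (A * Matrix.single x y (1 : K) * Aᵀ : Matrix (Fin 4) (Fin 4) K) k l = A k x * A l y := fun x y => by
      rw [Matrix.mul_apply, Finset.sum_eq_single y (fun b _ hb => by
        rw [Matrix.mul_apply, Finset.sum_eq_zero (fun a _ => by simp [Matrix.single, Ne.symm hb]), zero_mul])
        (fun h' => absurd (Finset.mem_univ y) h')]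
      simp [Matrix.mul_apply, Matrix.single]
    rw [hs, hs, Matrix.single_apply, Matrix.single_apply] at e
    simpa [eq_comm] using e
  have hoff : ∀ i k : Fin 4, k ≠ i → A k i = 0 := by
    intro i k hki
    obtain ⟨j, hji, hjk⟩ : ∃ j : Fin 4, j ≠ i ∧ j ≠ k := (by decide : ∀ i k : Fin 4, ∃ j, j ≠ i ∧ j ≠ k) i k
    have e0 := hm i j hji.symm i j
    have e1 := hm i j hji.symm i k
    have e2 := hm i j hji.symm j k
    simp [hki, hji, hjk, hji.symm, hjk.symm, Ne.symm hki] at e0 e1 e2
    linear_combination (A j i) * e1 - (A i i) * e2 - (A k i) * e0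
  have hd : ∀ i j : Fin 4, i ≠ j → A i i * A j j = 1 := by
    intro i j hij
    have e := hm i j hij i j
    simp [hoff j i hij, hoff i j (Ne.symm hij), hij] at e
    exact e
  have h01 := hd 0 1 (by decide)
  have h02 := hd 0 2 (by decide)
  have h12 := hd 1 2 (by decide)
  have hsq : A 0 0 * A 0 0 = 1 := by
    linear_combination (-(A 0 0 * A 0 0)) * h12 + (A 0 0 * A 1 1 * 1) * h02 + h01
  have hdiag : A = A 0 0 • 1 := by
    ext i j
    by_cases hij : i = j
    · subst hij
      by_cases hi : i = 0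
      · subst hi; simp
      · have := hd 0 i (Ne.symm hi)
        simp
        linear_combination (A 0 0) * this - A i i * hsq
    · simp [hoff j i hij, hij]
  rcases mul_self_eq_one_iff.1 hsq with h' | h' <;> rw [h'] at hdiag
  · exact Or.inl (hdiag.trans (one_smul _ _))
  · exact Or.inr (hdiag.trans (neg_one_smul _ _))

/-- The exterior square of a sign is trivial. -/
theorem klein_sign {K : Type*} [Field K] {A : Matrix (Fin 4) (Fin 4) K} (h : A = 1 ∨ A = -1) :
    OrthSmall.klein A = 1 := by
  rcases h with rfl | rfl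
  · exact map_one _
  · refine Matrix.toLin'.injective (LinearMap.ext fun v => ?_)
    apply OrthSmall.mat6_injective
    simp [OrthSmall.mat6_klein]

variable {K : Type*} [Field K]

/-- A central member squaring to minus one. -/
theorem exists_root_neg_one [Finite K] {R : Subgroup (GL (Fin 4) K)} (D : Sympl.Data R)
    (hZ : Nat.card (Subgroup.center R) = 4) : ∃ z ∈ R, ∃ c : K, c * c = -1 ∧ (z : Matrix (Fin 4) (Fin 4) K) = c • 1 := by
  classical
  have hsc : ∀ z : Subgroup.center R, ∃ c : K, (((z : R) : GL (Fin 4) K) : Matrix (Fin 4) (Fin 4) K) = c • 1 :=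
    fun z => D.scalar _ fun x hx => by
      have := congrArg (fun t : R => ((t : GL (Fin 4) K) : Matrix (Fin 4) (Fin 4) K))
        (Subgroup.mem_center_iff.1 z.2 ⟨x, hx⟩)
      simpa using this.symm
  choose c hc using hsc
  by_contra hno
  push Not at hno
  have hsq : ∀ z, c z = 1 ∨ c z = -1 := fun z => by
    rcases CfsgLib.Classical.PrimeDerangement.Sympl.sq_eq_of_scalar D (z : R).2 (hc z) with h | h
    · exact sq_eq_one_iff.1 h
    · exact absurd (hc z) (hno _ (z : R).2 (c z) (by rw [← pow_two, h]))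
  have hinj : Function.Injective fun z => decide (c z = 1) := fun a b hab => by
    have e : c a = c b := by
      rcases hsq a with h1 | h1 <;> rcases hsq b with h2 | h2 <;> simp_all
    exact Subtype.ext (Subtype.ext (Units.ext (by rw [hc, hc, e])))
  have := Nat.card_le_card_of_injective _ hinj
  rw [hZ, Nat.card_eq_fintype_card, Fintype.card_bool] at this
  omega

/-- The members have determinant one. -/
theorem det_eq_one (h2 : (2 : K) ≠ 0) {R : Subgroup (GL (Fin 4) K)} (D : Sympl.Data R) {i : K}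
    (hi : i * i = -1) {g : GL (Fin 4) K} (hg : g ∈ R) : (g : Matrix (Fin 4) (Fin 4) K).det = 1 := by
  classical
  obtain ⟨y, hy, hne⟩ | hall := em (∃ y ∈ R, (g : Matrix (Fin 4) (Fin 4) K) * y ≠ (y : Matrix (Fin 4) (Fin 4) K) * g)
  swap
  · push Not at hall
    obtain ⟨c, hc⟩ := D.scalar _ hall
    rw [hc, Matrix.det_smul, Matrix.det_one, mul_one, Fintype.card_fin]
    rcases CfsgLib.Classical.PrimeDerangement.Sympl.sq_eq_of_scalar D hg hc with h | h <;>
      rw [show c ^ 4 = c ^ 2 * c ^ 2 by ring, h] <;> ring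
  have e := (D.sign g hg y hy).resolve_left hne
  -- an involution with the same determinant
  obtain ⟨r, hrr, hr, hry⟩ : ∃ r : Matrix (Fin 4) (Fin 4) K, r * r = 1 ∧ r.det = (g : Matrix (Fin 4) (Fin 4) K).det ∧
      r * y = -((y : Matrix (Fin 4) (Fin 4) K) * r) := by
    rcases D.sq g hg with h | h
    · exact ⟨_, h, rfl, e⟩
    · refine ⟨i • (g : Matrix (Fin 4) (Fin 4) K), ?_, ?_, ?_⟩
      · rw [Matrix.smul_mul, Matrix.mul_smul, smul_smul, h, hi, smul_neg, neg_one_smul, neg_neg]
      · rw [Matrix.det_smul, Fintype.card_fin, show i ^ 4 = (i * i) * (i * i) by ring, hi]; ring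
      · rw [Matrix.smul_mul, e, Matrix.mul_smul, smul_neg]
  rw [← hr]
  set f := Matrix.toLin' r
  have hf : ∀ v, f v = r *ᵥ v := fun v => Matrix.toLin'_apply r v
  let P := LinearMap.ker (f - LinearMap.id)
  let N := LinearMap.ker (f + LinearMap.id)
  have hP : ∀ v, v ∈ P ↔ r *ᵥ v = v := fun v => by simp [P, hf, sub_eq_zero]
  have hN : ∀ v, v ∈ N ↔ r *ᵥ v = -v := fun v => by simp [N, hf, add_eq_zero_iff_eq_neg]
  have hff : ∀ v, r *ᵥ (r *ᵥ v) = v := fun v => by rw [mulVec_mulVec, hrr, one_mulVec]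
  have hcomp : IsCompl P N := by
    refine ⟨Submodule.disjoint_def.2 fun v hv hv' => ?_, codisjoint_iff.2 (eq_top_iff.2 fun v _ => ?_)⟩
    · have h' : (2 : K) • v = 0 := by
        rw [two_smul]
        nth_rewrite 1 [← (hP v).1 hv]
        rw [(hN v).1 hv', neg_add_cancel]
      exact (smul_eq_zero.1 h').resolve_left h2
    · have hv : v = (2 : K)⁻¹ • (v + r *ᵥ v) + (2 : K)⁻¹ • (v - r *ᵥ v) := by
        rw [← smul_add, add_add_sub_cancel, ← two_smul K v, smul_smul, inv_mul_cancel₀ h2, one_smul]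
      rw [hv]
      refine Submodule.add_mem_sup (P.smul_mem _ ((hP _).2 ?_)) (N.smul_mem _ ((hN _).2 ?_))
      · rw [mulVec_add, hff, add_comm]
      · rw [mulVec_sub, hff, neg_sub]
  have hswap : ∀ v, r *ᵥ ((y : Matrix (Fin 4) (Fin 4) K) *ᵥ v) = -((y : Matrix (Fin 4) (Fin 4) K) *ᵥ (r *ᵥ v)) :=
    fun v => by rw [mulVec_mulVec, hry, neg_mulVec, ← mulVec_mulVec]
  have hinj : Function.Injective ((y : Matrix (Fin 4) (Fin 4) K).mulVec) :=
    Function.LeftInverse.injective (g := ((y⁻¹ : GL (Fin 4) K) : Matrix (Fin 4) (Fin 4) K).mulVec) fun v => by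
      rw [mulVec_mulVec, ← Units.val_mul, inv_mul_cancel, Units.val_one, one_mulVec]
  have h1 : Module.finrank K P ≤ Module.finrank K N :=
    LinearMap.finrank_le_finrank_of_injective
      (f := ((Matrix.mulVecLin (y : Matrix (Fin 4) (Fin 4) K)).restrict (p := P) (q := N) fun v hv => (hN _).2 (by
        show r *ᵥ ((y : Matrix (Fin 4) (Fin 4) K) *ᵥ v) = _
        rw [hswap, (hP v).1 hv]; rfl))) fun a b hab => Subtype.ext (hinj (congrArg Subtype.val hab))
  have h1' : Module.finrank K N ≤ Module.finrank K P :=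
    LinearMap.finrank_le_finrank_of_injective
      (f := ((Matrix.mulVecLin (y : Matrix (Fin 4) (Fin 4) K)).restrict (p := N) (q := P) fun v hv => (hP _).2 (by
        show r *ᵥ ((y : Matrix (Fin 4) (Fin 4) K) *ᵥ v) = _
        rw [hswap, (hN v).1 hv, mulVec_neg, neg_neg]; rfl))) fun a b hab => Subtype.ext (hinj (congrArg Subtype.val hab))
  have h4 := Submodule.finrank_add_eq_of_isCompl hcomp
  rw [Module.finrank_fintype_fun_eq_card, Fintype.card_fin] at h4
  let e' := Submodule.prodEquivOfIsCompl P N hcomp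
  have hconj : (e'.symm.toLinearMap ∘ₗ f ∘ₗ e'.toLinearMap) = LinearMap.prodMap LinearMap.id (-LinearMap.id) := by
    refine LinearMap.ext fun x => ?_
    apply e'.injective
    simp only [LinearMap.comp_apply, LinearEquiv.coe_coe, LinearEquiv.apply_symm_apply]
    rw [hf]
    show r *ᵥ ((x.1 : Fin 4 → K) + x.2) = ((x.1 : Fin 4 → K) + (-x.2 : N))
    rw [mulVec_add, (hP _).1 x.1.2, (hN _).1 x.2.2]
    rfl
  have hdet : LinearMap.det (e'.symm.toLinearMap ∘ₗ f ∘ₗ e'.toLinearMap) = LinearMap.det f := by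
    simpa using LinearMap.det_conj f e'.symm
  rw [hconj, LinearMap.det_prodMap, LinearMap.det_id, one_mul,
    show (-LinearMap.id : N →ₗ[K] N) = (-1 : K) • LinearMap.id from LinearMap.ext fun x => (neg_one_smul K x).symm, LinearMap.det_smul, LinearMap.det_id,
    show Module.finrank K N = 2 by omega, neg_one_sq, one_mul, LinearMap.det_toLin'] at hdet
  exact hdet.symm

/-- An absolutely irreducible group of symplectic type in dimension four with centre of order four has
order sixty-four. -/
theorem card_eq_sixtyfour {K : Type*} [Field K] [Finite K] {R : Subgroup (GL (Fin 4) K)} (D : Sympl.Data R)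
    (hirr : Cfsg.Geo.ActsAbsolutelyIrreducibly (Cfsg.Geo.matrixSet R))
    (hZ : Nat.card (Subgroup.center R) = 4) : Nat.card R = 64 := by
  have hne : ∀ y ∈ R, ∀ x : Matrix (Fin 4) (Fin 4) K, x * ((y : Matrix (Fin 4) (Fin 4) K)) *
      ((y⁻¹ : GL (Fin 4) K) : Matrix (Fin 4) (Fin 4) K) = x := fun y _ x => by
    rw [mul_assoc, ← Units.val_mul, mul_inv_cancel, Units.val_one, mul_one]
  have hab : ∀ x ∈ R, ∀ y ∈ R, y * x * y⁻¹ * x⁻¹ ∈ Cfsg.Geo.scalars (Fin 4) K := by
    intro x hx y hy
    refine (Cfsg.Geo.mem_scalars_iff _).2 ?_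
    rcases D.sign y hy x hx with h | h
    · refine ⟨1, ?_⟩
      rw [Units.val_mul, Units.val_mul, Units.val_mul, h, hne y hy, ← Units.val_mul, mul_inv_cancel]
      simp
    · refine ⟨-1, ?_⟩
      rw [Units.val_mul, Units.val_mul, Units.val_mul, h, neg_mul, hne y hy, neg_mul, ← Units.val_mul, mul_inv_cancel]
      simp
  have h16 := CfsgLib.Aschbacher.card_quotient_scalars hirr hab
  have he : (Cfsg.Geo.scalars (Fin 4) K).subgroupOf R = Subgroup.center R := by
    ext x
    rw [Subgroup.mem_subgroupOf, Cfsg.Geo.mem_scalars_iff]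
    constructor
    · rintro ⟨c, hc⟩
      refine Subgroup.mem_center_iff.2 fun y => Subtype.ext (Units.ext ?_)
      simp [hc]
    · intro hx
      obtain ⟨c, hc⟩ := D.scalar _ fun y hy => by
        have := congrArg (fun t : R => ((t : GL (Fin 4) K) : Matrix (Fin 4) (Fin 4) K))
          (Subgroup.mem_center_iff.1 hx ⟨y, hy⟩)
        simpa using this.symm
      refine ⟨Units.mk0 c fun h0 => (x : GL (Fin 4) K).ne_zero (by rw [hc, h0, zero_smul]), ?_⟩
      simpa using hc
  rw [he, Fintype.card_fin] at h16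
  rw [Subgroup.card_eq_card_quotient_mul_card_subgroup (Subgroup.center R), h16, hZ]

variable {ι : Type} [Fintype ι] [DecidableEq ι] {F : Type*} [Field F] [Fintype F] {Q : (ι → F) → F}

/-- The normaliser of a group of symplectic type of order 64 is maximal in a group covering Omega of a
six-dimensional space through the exterior square. -/
theorem symplecticType_four_isMaximal [Finite K] {S : Type*} [Group S] [Finite S]
    (hQ : Cfsg.Geo.IsNondegenerateQuadraticForm Q) (hp : (Fintype.card F).Prime) (h2 : (2 : F) ≠ 0)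
    (hι : Fintype.card ι = 6) (h2K : (2 : K) ≠ 0) (hperf : commutator S = ⊤)
    (hcardP : Nat.card (S ⧸ Subgroup.center S) = Nat.card (Cfsg.POmega F Q))
    (σ : S →* GL (Fin 4) K) (hσi : Function.Injective σ) (φ : S →* GL ι F)
    (hφI : φ.range ≤ Cfsg.isometryGroup F Q)
    (hker : ∀ s, φ s = 1 ↔ ((σ s : Matrix (Fin 4) (Fin 4) K) = 1 ∨ (σ s : Matrix (Fin 4) (Fin 4) K) = -1))
    (R : Subgroup (GL (Fin 4) K)) (hdata : Sympl.Data R)
    (hRS : R ≤ σ.range) (hcard : Nat.card R = 64) (hZ : Nat.card (Subgroup.center R) = 4) :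
    Cfsg.Geo.IsMaximalIn σ.range (Cfsg.Geo.subgroupNormalizer R ⊓ σ.range) := by
  classical
  obtain ⟨w, hwR, i, hi, hwv⟩ := exists_root_neg_one hdata hZ
  obtain ⟨z, hzR, hzval⟩ : ∃ z : GL (Fin 4) K, z ∈ R ∧ (z : Matrix (Fin 4) (Fin 4) K) = -1 :=
    ⟨w * w, mul_mem hwR hwR, by rw [Units.val_mul, hwv, smul_mul_assoc, one_mul, smul_smul, hi, neg_one_smul]⟩
  obtain ⟨s₀, hs₀⟩ := hRS hwR
  have hk2 : Nat.card φ.ker = 2 := by
    obtain ⟨t, ht⟩ := hRS hzR
    have htk : φ t = 1 := (hker t).2 (Or.inr (by rw [ht, hzval]))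
    refine Nat.card_eq_two_iff.2 ⟨1, ⟨t, htk⟩, fun h => h2K ?_, Set.eq_univ_of_forall fun x => ?_⟩
    · have e : σ 1 = σ t := congrArg (fun x : φ.ker => σ x.1) h
      rw [map_one, ht] at e
      have := congrArg (fun g : GL (Fin 4) K => (g : Matrix (Fin 4) (Fin 4) K) 0 0) e
      simp [hzval] at this
      linear_combination this
    · rcases (hker x.1).1 x.2 with h | h
      · exact Or.inl (Subtype.ext (hσi (by rw [show σ x.1 = 1 from Units.ext h]; exact (map_one σ).symm)))
      · exact Or.inr (Subtype.ext (hσi (by rw [ht]; exact Units.ext (h.trans hzval.symm))))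
  have hrange : φ.range = Cfsg.Geo.omegaGL Q := by
    let f : S →* Cfsg.isometryGroup F Q := φ.codRestrict _ fun g => hφI ⟨g, rfl⟩
    have hle : φ.range ≤ Cfsg.Geo.omegaGL Q := by
      rintro _ ⟨s, rfl⟩
      have h : Subgroup.map f (commutator S) ≤ Cfsg.Omega F Q := by
        simp only [commutator_def, Subgroup.map_commutator]
        exact Subgroup.commutator_mono le_top le_top
      exact ⟨f s, h (Subgroup.mem_map_of_mem f (hperf ▸ Subgroup.mem_top s)), rfl⟩
    refine Subgroup.eq_of_le_of_card_ge hle ?_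
    have hcz := card_center_omega hQ (by omega : 5 ≤ Fintype.card ι)
    have hz2 : Nat.card (Subgroup.center (Cfsg.Omega F Q)) ≤ 2 := by
      by_cases hh : ∃ g : Cfsg.isometryGroup F Q, g ∈ Cfsg.Omega F Q ∧ ((g : GL ι F) : Matrix ι ι F) = -1
      · exact (hcz.2 hh h2).le
      · exact (hcz.1 (Or.inl hh)).le.trans one_le_two
    have hΩ : Nat.card (Cfsg.Geo.omegaGL Q) ≤ Nat.card (Cfsg.POmega F Q) * 2 := by
      rw [Cfsg.Geo.omegaGL, Subgroup.card_map_of_injective (Subgroup.subtype_injective _),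
        Subgroup.card_eq_card_quotient_mul_card_subgroup (Subgroup.center (Cfsg.Omega F Q))]
      exact Nat.mul_le_mul_left _ hz2
    have hcen : s₀ ∈ Subgroup.center S := Subgroup.mem_center_iff.2 fun g => hσi (by
      rw [map_mul, map_mul, hs₀]
      exact Units.ext (by rw [Units.val_mul, Units.val_mul, hwv, smul_mul_assoc, one_mul, mul_smul_comm, mul_one]))
    have hz4 : 4 ≤ Nat.card (Subgroup.center S) := by
      have hv : ∀ n : ℕ, ((σ (s₀ ^ n)) : Matrix (Fin 4) (Fin 4) K) = i ^ n • 1 := fun n => by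
        rw [map_pow, hs₀, Units.val_pow_eq_pow_val, hwv, smul_pow, one_pow]
      have hinj : Function.Injective fun n : Fin 4 => (⟨s₀ ^ (n : ℕ), pow_mem hcen _⟩ : Subgroup.center S) := by
        intro a b hab
        have e : i ^ (a : ℕ) = i ^ (b : ℕ) := by
          have := (hv a).symm.trans ((congrArg (fun x : Subgroup.center S => ((σ x.1) : Matrix (Fin 4) (Fin 4) K)) hab).trans (hv b))
          simpa using congrFun (congrFun this 0) 0
        have hi1 : i ≠ 1 := fun h => h2K (by rw [h] at hi; linear_combination hi)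
        have hi2 : i ≠ -1 := fun h => h2K (by rw [h] at hi; linear_combination hi)
        have i2 : i ^ 2 = -1 := by rw [pow_two, hi]
        have i3 : i ^ 3 = -i := by rw [pow_succ, i2, neg_one_mul]
        fin_cases a <;> fin_cases b <;> first
          | rfl
          | exfalso
            simp only [pow_zero, pow_one, i2, i3] at e
            first
              | exact h2K (by linear_combination e)
              | exact h2K (by linear_combination -e)
              | exact hi1 (by linear_combination e)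
              | exact hi1 (by linear_combination -e)
              | exact hi2 (by linear_combination e)
              | exact hi2 (by linear_combination -e)
              | exact mul_ne_zero h2K (fun h : i = 0 => by simp [h] at hi) (by linear_combination e)
              | exact mul_ne_zero h2K (fun h : i = 0 => by simp [h] at hi) (by linear_combination -e)
      have := Nat.card_le_card_of_injective _ hinj
      simpa using this
    have hS := Subgroup.card_eq_card_quotient_mul_card_subgroup φ.ker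
    rw [Nat.card_congr (QuotientGroup.quotientKerEquivRange φ).toEquiv, hk2,
      Subgroup.card_eq_card_quotient_mul_card_subgroup (Subgroup.center S), hcardP] at hS
    have : Nat.card (Cfsg.POmega F Q) * 4 ≤ Nat.card φ.range * 2 :=
      hS ▸ Nat.mul_le_mul_left _ hz4
    omega
  set R0 := R.comap σ with hR0
  have hR0mem : ∀ s, s ∈ R0 ↔ σ s ∈ R := fun s => Iff.rfl
  have hker0 : ∀ s, φ s = 1 → s ∈ R0 := by
    intro s hs
    rw [hR0mem]
    rcases (hker s).1 hs with h | h
    · rw [show σ s = 1 from Units.ext h]; exact one_mem _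
    · rw [show σ s = z from Units.ext (h.trans hzval.symm)]; exact hzR
  have hR0card : Nat.card R0 = 64 := by
    rw [← hcard]
    refine Nat.card_congr (Equiv.ofBijective (fun s => (⟨σ s.1, s.2⟩ : R)) ⟨fun a b h => ?_, fun x => ?_⟩)
    · exact Subtype.ext (hσi (congrArg Subtype.val h))
    · obtain ⟨s, hs⟩ : (x : GL (Fin 4) K) ∈ σ.range := hRS x.2
      exact ⟨⟨s, by rw [hR0mem, hs]; exact x.2⟩, Subtype.ext hs⟩
  set E := R0.map φ with hE
  have hEΩ : E ≤ Cfsg.Geo.omegaGL Q := hrange ▸ Subgroup.map_le_range φ R0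
  have hEsq : ∀ x ∈ E, x * x = 1 := by
    rintro _ ⟨s, hs, rfl⟩
    rw [← map_mul, hker, map_mul, Units.val_mul]
    exact hdata.sq _ hs
  have hEcard : Nat.card E = 32 := by
    have h1 := Subgroup.card_eq_card_quotient_mul_card_subgroup (φ.comp R0.subtype).ker
    rw [Nat.card_congr (QuotientGroup.quotientKerEquivRange (φ.comp R0.subtype)).toEquiv, hR0card,
      MonoidHom.range_comp, Subgroup.range_subtype] at h1
    have h2' : Nat.card (φ.comp R0.subtype).ker = Nat.card φ.ker := by
      refine Nat.card_congr (Equiv.ofBijective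
        (fun s => (⟨s.1.1, s.2⟩ : φ.ker)) ⟨fun a b h => ?_, fun x => ?_⟩)
      · exact Subtype.ext (Subtype.ext (congrArg Subtype.val h :))
      · exact ⟨⟨⟨x.1, hker0 _ x.2⟩, x.2⟩, rfl⟩
    rw [h2', hk2] at h1
    change 64 = Nat.card E * 2 at h1
    omega
  have hmax := FrameSix90.normalizer_thirtytwo_isMaximal hQ hp h2 hι E hEΩ hEsq hEcard
  have hNiff : ∀ s, φ s ∈ Subgroup.normalizer (E : Set (GL ι F)) ↔
      σ s ∈ Cfsg.Geo.subgroupNormalizer R := by
    intro s
    have key : ∀ r, φ r ∈ E ↔ r ∈ R0 := fun r => by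
      refine ⟨?_, fun h => ⟨r, h, rfl⟩⟩
      rintro ⟨r', hr', e⟩
      have h1 : φ (r'⁻¹ * r) = 1 := by rw [map_mul, map_inv, e, inv_mul_cancel]
      simpa using mul_mem hr' (hker0 _ h1)
    rw [Subgroup.mem_normalizer_iff]
    show _ ↔ σ s ∈ Subgroup.normalizer (R : Set (GL (Fin 4) K))
    rw [Subgroup.mem_normalizer_iff]
    constructor
    · intro h x
      constructor
      · intro hx
        obtain ⟨r, rfl⟩ : x ∈ σ.range := hRS hx
        rw [← map_inv, ← map_mul, ← map_mul, ← hR0mem, ← key, map_mul, map_mul, map_inv]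
        exact (h (φ r)).1 ((key r).2 hx)
      · intro hx
        obtain ⟨r, hr⟩ : σ s * x * (σ s)⁻¹ ∈ σ.range := hRS hx
        have hxeq : x = σ (s⁻¹ * r * s) := by rw [map_mul, map_mul, map_inv, hr]; group
        rw [hxeq, ← hR0mem, ← key, map_mul, map_mul, map_inv]
        refine (h _).2 ?_
        rw [show φ s * ((φ s)⁻¹ * φ r * φ s) * (φ s)⁻¹ = φ r by group, key, hR0mem, hr]
        exact hx
    · intro h x
      constructor
      · rintro ⟨r, hr, rfl⟩
        rw [← map_inv, ← map_mul, ← map_mul, key, hR0mem, map_mul, map_mul, map_inv]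
        exact (h _).1 hr
      · rintro ⟨r, hr, e⟩
        have hxeq : x = φ (s⁻¹ * r * s) := by rw [map_mul, map_mul, map_inv, e]; group
        rw [hxeq, key, hR0mem, map_mul, map_mul, map_inv]
        refine (h _).2 ?_
        rw [show σ s * ((σ s)⁻¹ * σ r * σ s) * (σ s)⁻¹ = σ r by group]
        exact hr
  obtain ⟨hlt, hmax'⟩ := hmax
  refine ⟨lt_of_le_not_ge inf_le_right fun hle => ?_, fun M hPM hMS => ?_⟩
  · refine not_le_of_gt hlt fun y hy => ⟨?_, hy⟩
    obtain ⟨s, rfl⟩ : y ∈ φ.range := hrange ▸ hy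
    exact (hNiff s).2 (hle (⟨s, rfl⟩ : σ s ∈ σ.range)).1
  · have hge : Subgroup.normalizer (E : Set (GL ι F)) ⊓ Cfsg.Geo.omegaGL Q ≤
        (M.comap σ).map φ := by
      rintro y ⟨hyN, hyΩ⟩
      obtain ⟨s, rfl⟩ : y ∈ φ.range := hrange ▸ hyΩ
      exact ⟨s, hPM ⟨(hNiff s).1 hyN, ⟨s, rfl⟩⟩, rfl⟩
    have hkM : ∀ s, φ s = 1 → s ∈ M.comap σ := fun s hs => by
      refine hPM ⟨?_, ⟨s, rfl⟩⟩
      exact (hNiff s).1 (by rw [hs]; exact one_mem _)
    rcases hmax' _ hge (hrange ▸ Subgroup.map_le_range φ _) with h | h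
    · left
      refine le_antisymm (fun g hg => ⟨?_, hMS hg⟩) hPM
      obtain ⟨s, rfl⟩ : g ∈ σ.range := hMS hg
      exact (hNiff s).1 (h.le ⟨s, hg, rfl⟩).1
    · right
      refine le_antisymm hMS fun g hg => ?_
      obtain ⟨s, rfl⟩ : g ∈ σ.range := hg
      obtain ⟨t, ht, e⟩ := h.ge (hrange ▸ ⟨s, rfl⟩ : φ s ∈ Cfsg.Geo.omegaGL Q)
      have h1 : φ (t⁻¹ * s) = 1 := by rw [map_mul, map_inv, e, inv_mul_cancel]
      have := mul_mem ht (hkM _ h1)
      rwa [mul_inv_cancel_left] at this

end CfsgLib.FrameSix90
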